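import Mathlib

set_option autoImplicit false

/-! # Fixed-point-free automorphisms of order three (helper67)

`N` has class at most two. -/

namespace Cfsg.Agent.H67.Fpf3

open Subgroup

/-- norm identities of a fixed-point-free automorphism of order three -/
structure Nrm {N : Type*} [Group N] (φ : N →* N) : Prop where
  n1 : ∀ g, g * φ g * φ (φ g) = 1
  n2 : ∀ g, g * φ (φ g) * φ g = 1
  n3 : ∀ g, φ (φ (φ g)) = g

variable {N : Type*} [Group N] {φ : N →* N}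

theorem Nrm.comp (h : Nrm φ) : Nrm (φ.comp φ) where
  n1 := fun g => by
    change g * φ (φ g) * φ (φ (φ (φ g))) = 1
    rw [h.n3]; exact h.n2 g
  n2 := fun g => by
    change g * φ (φ (φ (φ g))) * φ (φ g) = 1
    rw [h.n3]; exact h.n1 g
  n3 := fun g => by
    change φ (φ (φ (φ (φ (φ g))))) = g
    rw [h.n3, h.n3]

theorem Nrm.eq1 (h : Nrm φ) (a b : N) :
    (b⁻¹ * a * b) * φ a * (φ b * φ (φ a) * (φ b)⁻¹) = 1 := by
  have h1 := h.n1 (a * b)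
  have h2 : φ (φ b) * b = (φ b)⁻¹ := by
    have h3 := h.n1 b
    apply eq_inv_of_mul_eq_one_right
    calc φ b * (φ (φ b) * b) = b⁻¹ * (b * φ b * φ (φ b)) * b := by group
      _ = 1 := by rw [h3]; group
  rw [map_mul, map_mul] at h1
  calc (b⁻¹ * a * b) * φ a * (φ b * φ (φ a) * (φ b)⁻¹)
      = (b⁻¹ * a * b) * φ a * (φ b * φ (φ a) * (φ (φ b) * b)) := by rw [h2]
    _ = b⁻¹ * (a * b * (φ a * φ b) * (φ (φ a) * φ (φ b))) * b := by group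
    _ = 1 := by rw [h1]; group

theorem Nrm.comm2 (h : Nrm φ) (a b : N) :
    (b⁻¹ * a * b) * φ (φ a) = φ (φ a) * (b⁻¹ * a * b) := by
  have h2 := h.comp.eq1 a b
  have h3 := h.eq1 (φ a) ((φ (φ b))⁻¹)
  change (b⁻¹ * a * b) * φ (φ a) * (φ (φ b) * φ (φ (φ (φ a))) * (φ (φ b))⁻¹) = 1 at h2
  rw [h.n3] at h2
  rw [map_inv, h.n3, h.n3, inv_inv, inv_inv] at h3
  have h4 : φ (φ b) * φ a * (φ (φ b))⁻¹ = ((b⁻¹ * a * b) * φ (φ a))⁻¹ :=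
    eq_inv_of_mul_eq_one_right h2
  have h5 : φ (φ b) * φ a * (φ (φ b))⁻¹ = (φ (φ a) * (b⁻¹ * a * b))⁻¹ := by
    apply eq_inv_of_mul_eq_one_left
    rw [← mul_assoc]
    exact h3
  rw [h4] at h5
  exact inv_injective h5

theorem Nrm.comm1 (h : Nrm φ) (a b : N) : (b⁻¹ * a * b) * φ a = φ a * (b⁻¹ * a * b) := by
  have := h.comp.comm2 a b
  change (b⁻¹ * a * b) * φ (φ (φ (φ a))) = φ (φ (φ (φ a))) * (b⁻¹ * a * b) at this
  rwa [h.n3] at this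

/-- elements commute with their conjugates -/
theorem Nrm.comm0 (h : Nrm φ) (a b : N) : (b⁻¹ * a * b) * a = a * (b⁻¹ * a * b) := by
  have h1 : a = (φ a * φ (φ a))⁻¹ := by
    apply eq_inv_of_mul_eq_one_left
    rw [← mul_assoc]
    exact h.n1 a
  have h2 : Commute (b⁻¹ * a * b) ((φ a * φ (φ a))⁻¹) :=
    ((show Commute _ _ from h.comm1 a b).mul_right (h.comm2 a b)).inv_right
  rw [← h1] at h2
  exact h2

theorem Nrm.shift (h : Nrm φ) (a b : N) :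
    a⁻¹ * b⁻¹ * a * b = (φ (φ a))⁻¹ * (φ b)⁻¹ * φ (φ a) * φ b := by
  have h1 := h.eq1 a b
  have h2 : φ a = a⁻¹ * (φ (φ a))⁻¹ := by
    have := h.n1 a
    calc φ a = a⁻¹ * (a * φ a * φ (φ a)) * (φ (φ a))⁻¹ := by group
      _ = a⁻¹ * (φ (φ a))⁻¹ := by rw [this]; group
  have h3 := h.comm0 a b
  -- P * a⁻¹ = φ b * (φφa)⁻¹ * (φ b)⁻¹ * φφa
  have h4 : (b⁻¹ * a * b) * a⁻¹ = φ b * (φ (φ a))⁻¹ * (φ b)⁻¹ * φ (φ a) := by
    have h5' : (b⁻¹ * a * b) * φ a = (φ b * φ (φ a) * (φ b)⁻¹)⁻¹ := eq_inv_of_mul_eq_one_left h1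
    have h5 : (b⁻¹ * a * b) * (a⁻¹ * (φ (φ a))⁻¹) = (φ b * φ (φ a) * (φ b)⁻¹)⁻¹ := by
      rw [← h2]; exact h5'
    calc (b⁻¹ * a * b) * a⁻¹ = (b⁻¹ * a * b) * (a⁻¹ * (φ (φ a))⁻¹) * φ (φ a) := by group
      _ = (φ b * φ (φ a) * (φ b)⁻¹)⁻¹ * φ (φ a) := by rw [h5]
      _ = _ := by group
  have h6 : a⁻¹ * b⁻¹ * a * b = (b⁻¹ * a * b) * a⁻¹ := by
    calc a⁻¹ * b⁻¹ * a * b = a⁻¹ * ((b⁻¹ * a * b) * a) * a⁻¹ := by group
      _ = a⁻¹ * (a * (b⁻¹ * a * b)) * a⁻¹ := by rw [h3]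
      _ = _ := by group
  rw [h6, h4]
  set u := φ (φ a) with hu
  set v := φ b with hv
  have h7 := h.comm0 v u
  -- u⁻¹ v u commutes with v
  have h8 : (u⁻¹ * v⁻¹ * u) * v = v * (u⁻¹ * v⁻¹ * u) := by
    calc (u⁻¹ * v⁻¹ * u) * v = (u⁻¹ * v * u)⁻¹ * (v * (u⁻¹ * v * u)) * (u⁻¹ * v * u)⁻¹ := by group
      _ = (u⁻¹ * v * u)⁻¹ * ((u⁻¹ * v * u) * v) * (u⁻¹ * v * u)⁻¹ := by rw [h7]
      _ = _ := by group
  calc v * u⁻¹ * v⁻¹ * u = v * (u⁻¹ * v⁻¹ * u) := by group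
    _ = (u⁻¹ * v⁻¹ * u) * v := by rw [h8]
    _ = _ := by group

theorem Nrm.central (h : Nrm φ) (hs : ∀ g : N, ∃ c, φ c * c⁻¹ = g) (a b : N) :
    a⁻¹ * b⁻¹ * a * b ∈ center N := by
  rw [mem_center_iff]
  intro g
  obtain ⟨c, rfl⟩ := hs g
  have h1 := h.shift a (b * c)
  have h2 := h.shift a b
  have h3 := h.shift a c
  set D := a⁻¹ * b⁻¹ * a * b with hD
  have h4 : a⁻¹ * (b * c)⁻¹ * a * (b * c) = (a⁻¹ * c⁻¹ * a * c) * (c⁻¹ * D * c) := by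
    rw [hD]; group
  have h5 : (φ (φ a))⁻¹ * (φ (b * c))⁻¹ * φ (φ a) * φ (b * c) =
      ((φ (φ a))⁻¹ * (φ c)⁻¹ * φ (φ a) * φ c) *
        ((φ c)⁻¹ * ((φ (φ a))⁻¹ * (φ b)⁻¹ * φ (φ a) * φ b) * φ c) := by
    rw [map_mul]; group
  rw [h4, h5, ← h2, ← h3] at h1
  have h6 := mul_left_cancel h1
  calc φ c * c⁻¹ * D = φ c * (c⁻¹ * D * c) * c⁻¹ := by group
    _ = φ c * ((φ c)⁻¹ * D * φ c) * c⁻¹ := by rw [h6]
    _ = D * (φ c * c⁻¹) := by group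

end Cfsg.Agent.H67.Fpf3
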