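import Cfsg.Agent.OddP.Alperin
import Cfsg.Agent.OddP.NormalSq
import Cfsg.Agent.H33.SmallOrd
import Cfsg.Agent.H67.Elem

set_option autoImplicit false

/-! # Miller's theorem on cyclic subgroups of order `p ^ s` (helper67) -/

namespace Cfsg.Agent.H67.Mil

open Subgroup

variable {G : Type*} [Group G] [Finite G]

theorem orderOf_eq_of_zpowers {x y : G} (h : zpowers y = zpowers x) : orderOf y = orderOf x := by
  rw [← Nat.card_zpowers, ← Nat.card_zpowers, h]

theorem zpowers_eq_of_mem {x y : G} (h : y ∈ zpowers x) (ho : orderOf y = orderOf x) :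
    zpowers y = zpowers x :=
  Subgroup.eq_of_le_of_card_ge (zpowers_le.mpr h) (by rw [Nat.card_zpowers, Nat.card_zpowers, ho])

/-- generators of a cyclic group -/
theorem card_zp_fiber (x : G) :
    Nat.card {y : G // zpowers y = zpowers x} = (orderOf x).totient := by
  classical
  have : Fintype (zpowers x) := Fintype.ofFinite _
  have h1 := IsCyclic.card_orderOf_eq_totient (α := zpowers x) (d := orderOf x)
    (by rw [← Nat.card_eq_fintype_card, Nat.card_zpowers])
  rw [← h1, ← Fintype.card_subtype, ← Nat.card_eq_fintype_card]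
  refine Nat.card_congr ⟨fun y => ⟨⟨y.1, by have h := mem_zpowers y.1; rwa [y.2] at h⟩, ?_⟩, fun c => ⟨c.1.1, ?_⟩,
    fun y => rfl, fun c => rfl⟩
  · rw [Subgroup.orderOf_mk]
    exact orderOf_eq_of_zpowers y.2
  · refine zpowers_eq_of_mem c.1.2 ?_
    have := c.2
    rw [← Subgroup.orderOf_coe] at this
    exact this

theorem dvd_card_of_gen (Y : Set G) (hY : ∀ y ∈ Y, ∀ z, zpowers z = zpowers y → z ∈ Y) (n : ℕ)
    (hn : ∀ y ∈ Y, n ∣ (orderOf y).totient) : n ∣ Nat.card Y := by
  classical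
  have : Fintype (Subgroup G) := Fintype.ofFinite _
  rw [Nat.card_congr (Equiv.sigmaFiberEquiv (fun y : Y => zpowers y.1)).symm, Nat.card_sigma]
  refine Finset.dvd_sum fun C _ => ?_
  by_cases hC : ∃ y : Y, zpowers y.1 = C
  · obtain ⟨y, rfl⟩ := hC
    have h1 : Nat.card {z : Y // zpowers z.1 = zpowers y.1} = (orderOf y.1).totient := by
      rw [← card_zp_fiber]
      exact Nat.card_congr ⟨fun z => ⟨z.1.1, z.2⟩, fun z => ⟨⟨z.1, hY y.1 y.2 z.1 z.2⟩, z.2⟩,
        fun z => rfl, fun z => rfl⟩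
    rw [h1]
    exact hn y.1 y.2
  · have : IsEmpty {z : Y // zpowers z.1 = C} := ⟨fun z => hC ⟨z.1, z.2⟩⟩
    rw [Nat.card_of_isEmpty]
    exact dvd_zero n

/-- Number of elements of order `n` and number of cyclic subgroups of order `n`. -/
theorem card_order_eq (n : ℕ) :
    Nat.card {x : G // orderOf x = n} =
      n.totient * Nat.card {C : Subgroup G // IsCyclic C ∧ Nat.card C = n} := by
  classical
  have : Fintype {C : Subgroup G // IsCyclic C ∧ Nat.card C = n} := Fintype.ofFinite _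
  let f : {x : G // orderOf x = n} → {C : Subgroup G // IsCyclic C ∧ Nat.card C = n} :=
    fun x => ⟨zpowers x.1, inferInstance, by rw [Nat.card_zpowers, x.2]⟩
  rw [Nat.card_congr (Equiv.sigmaFiberEquiv f).symm, Nat.card_sigma]
  have h : ∀ C : {C : Subgroup G // IsCyclic C ∧ Nat.card C = n},
      Nat.card {x // f x = C} = n.totient := by
    rintro ⟨C, hC, hCn⟩
    obtain ⟨x, hx⟩ := (Subgroup.isCyclic_iff_exists_zpowers_eq_top C).mp hC
    subst hx
    rw [Nat.card_zpowers] at hCn
    subst hCn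
    rw [← card_zp_fiber]
    exact Nat.card_congr ⟨fun z => ⟨z.1.1, congrArg Subtype.val z.2⟩,
      fun z => ⟨⟨z.1, orderOf_eq_of_zpowers z.2⟩, Subtype.ext z.2⟩, fun z => rfl, fun z => rfl⟩
  simp only [h]
  rw [Finset.sum_const, Finset.card_univ, smul_eq_mul, mul_comm, ← Nat.card_eq_fintype_card]

/-- In a `p`-group, `p` odd, with normal elementary abelian subgroup of order `p ^ 2`. -/
theorem mul_pow_p {p : ℕ} [hp : Fact p.Prime] (hp2 : p ≠ 2) (hG : IsPGroup p G) {E : Subgroup G}
    (hE : E.Normal) (hEe : IsElementaryAbelian p E) (hEc : Nat.card E = p ^ 2) (x e : G)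
    (he : e ∈ E) : (x * e) ^ p = x ^ p := by
  have hp1 : 1 < p := hp.out.one_lt
  have hbot : (⊥ : Subgroup G) < E := by
    rw [bot_lt_iff_ne_bot]
    rintro rfl
    rw [Subgroup.card_bot] at hEc
    have : 1 < p ^ 2 := Nat.one_lt_pow (by norm_num) hp1
    omega
  obtain ⟨K, hKn, -, hKE, -, hEK, hcK⟩ := OddP.exists_normal_index_p hG Subgroup.normal_bot hE hbot
  have hKc : Nat.card K = p := by
    rw [hEc, pow_two] at hcK
    exact (Nat.eq_of_mul_eq_mul_right hp.out.pos hcK).symm
  have hbotK : (⊥ : Subgroup G) < K := by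
    rw [bot_lt_iff_ne_bot]
    rintro rfl
    rw [Subgroup.card_bot] at hKc
    omega
  obtain ⟨L, -, -, -, -, hKL, hcL⟩ := OddP.exists_normal_index_p hG Subgroup.normal_bot hKn hbotK
  have hL : L = ⊥ := by
    rw [← Subgroup.card_eq_one]
    rw [hKc] at hcL
    have : 1 * p = Nat.card L * p := by rw [one_mul]; exact hcL
    exact (Nat.eq_of_mul_eq_mul_right hp.out.pos this).symm
  subst hL
  set z : G := e⁻¹ * x⁻¹ * e * x with hz
  have hzK : z ∈ K := by
    have := hEK (e⁻¹) (E.inv_mem he) (x⁻¹)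
    simpa using this
  have hzE : z ∈ E := hKE.le hzK
  have hzc : ∀ g : G, z * g = g * z := by
    intro g
    have := hKL z hzK g
    rw [Subgroup.mem_bot] at this
    calc z * g = (z * g * z⁻¹ * g⁻¹) * (g * z) := by group
      _ = g * z := by rw [this, one_mul]
  have h1 : e * x = x * e * z := by rw [hz]; group
  have h2 := H33.mul_pow_class_two (a := x) (c := e) (z := z) h1 (hzc x) (hzc e) p
  rw [h2, hEe.2 e he, mul_one]
  have h3 : p ∣ p.choose 2 := hp.out.dvd_choose_self (by norm_num)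
    (lt_of_le_of_ne hp.out.two_le (Ne.symm hp2))
  obtain ⟨k, hk⟩ := h3
  rw [hk, pow_mul, hEe.2 z hzE, one_pow, mul_one]

end Cfsg.Agent.H67.Mil
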