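import Cfsg.Agent.H67.Mil

set_option autoImplicit false

/-! # Miller's theorem on cyclic subgroups of order `p ^ s` (helper67) -/

namespace Cfsg.Agent.H67.Mil

open Subgroup

variable {G : Type*} [Group G] [Finite G]

theorem orderOf_pow_prime {p : ℕ} (hp : p.Prime) {x : G} {s : ℕ} (hx : orderOf x = p ^ s) {k : ℕ}
    (hk : ¬ p ∣ k) : orderOf (x ^ k) = p ^ s := by
  rw [orderOf_pow, hx, Nat.Coprime.gcd_eq_one, Nat.div_one]
  exact Nat.Coprime.pow_left s ((Nat.Prime.coprime_iff_not_dvd hp).mpr hk)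

theorem dvd_card_order {p : ℕ} [hp : Fact p.Prime] (hp2 : p ≠ 2) (hG : IsPGroup p G)
    (hnc : ¬ IsCyclic G) {s : ℕ} (hs : 2 ≤ s) : p ^ s ∣ Nat.card {x : G // orderOf x = p ^ s} := by
  classical
  have hnc' : ¬ IsCyclic (⊤ : Subgroup G) := by
    intro h
    exact hnc (isCyclic_of_surjective (Subgroup.topEquiv (G := G)) (Subgroup.topEquiv (G := G)).surjective)
  obtain ⟨E, -, hEn, hEe, hEc⟩ := OddP.exists_sq_of_not_cyclic hp2 hG ⊤ inferInstance hnc'
  obtain ⟨r, rfl⟩ : ∃ r, s = r + 2 := ⟨s - 2, by omega⟩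
  have hxe : ∀ x e : G, e ∈ E → orderOf x = p ^ (r + 2) → orderOf (x * e) = p ^ (r + 2) := by
    intro x e he hx
    have h1 := mul_pow_p hp2 hG hEn hEe hEc x e he
    apply orderOf_eq_prime_pow
    · intro h2
      have h3 : x ^ p ^ (r + 1) = 1 := by
        rw [pow_succ' p r, pow_mul, ← h1, ← pow_mul, ← pow_succ' p r]
        exact h2
      have h4 := orderOf_dvd_of_pow_eq_one h3
      rw [hx] at h4
      have := (Nat.pow_dvd_pow_iff_le_right hp.out.one_lt).mp h4
      omega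
    · rw [pow_succ' p (r + 1), pow_mul, h1, ← pow_mul, ← pow_succ' p (r + 1)]
      rw [← hx]
      exact pow_orderOf_eq_one x
  let X : Set G := {x | orderOf x = p ^ (r + 2)}
  let Y : Set (G ⧸ E) := (QuotientGroup.mk : G → G ⧸ E) '' X
  have hXY : X = (QuotientGroup.mk : G → G ⧸ E) ⁻¹' Y := by
    ext x
    constructor
    · intro hx
      exact ⟨x, hx, rfl⟩
    · rintro ⟨y, hy, hyx⟩
      have h1 : y⁻¹ * x ∈ E := QuotientGroup.eq.mp hyx
      have h2 := hxe y (y⁻¹ * x) h1 hy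
      rw [mul_inv_cancel_left] at h2
      exact h2
  have hcard : Nat.card X = Nat.card E * Nat.card Y := by
    rw [hXY, Nat.card_congr (QuotientGroup.preimageMkEquivSubgroupProdSet E Y), Nat.card_prod]
  have hord : ∀ x : G, orderOf x = p ^ (r + 2) → ∃ t, r + 1 ≤ t ∧
      orderOf (QuotientGroup.mk x : G ⧸ E) = p ^ t := by
    intro x hx
    have h1 : (QuotientGroup.mk x : G ⧸ E) ^ p ^ (r + 2) = 1 := by
      rw [← hx, ← QuotientGroup.mk_pow, pow_orderOf_eq_one, QuotientGroup.mk_one]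
    obtain ⟨t, ht, hto⟩ := (Nat.dvd_prime_pow hp.out).mp (orderOf_dvd_of_pow_eq_one h1)
    refine ⟨t, ?_, hto⟩
    by_contra hlt
    have h2 : (QuotientGroup.mk x : G ⧸ E) ^ p ^ r = 1 := by
      apply orderOf_dvd_iff_pow_eq_one.mp
      rw [hto]
      exact pow_dvd_pow p (by omega)
    rw [← QuotientGroup.mk_pow] at h2
    have h3 : x ^ p ^ r ∈ E := (QuotientGroup.eq_one_iff _).mp h2
    have h4 := hEe.2 _ h3
    rw [← pow_mul, ← pow_succ] at h4
    have h5 := orderOf_dvd_of_pow_eq_one h4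
    rw [hx] at h5
    have := (Nat.pow_dvd_pow_iff_le_right hp.out.one_lt).mp h5
    omega
  have hYd : p ^ r ∣ Nat.card Y := by
    apply dvd_card_of_gen
    · rintro _ ⟨x, hx, rfl⟩ z hz
      obtain ⟨t, ht, hto⟩ := hord x hx
      have h1 : z ∈ zpowers (QuotientGroup.mk x : G ⧸ E) := by
        rw [← hz]; exact mem_zpowers z
      rw [← mem_powers_iff_mem_zpowers] at h1
      obtain ⟨k, hk⟩ := h1
      simp only at hk
      have h2 : orderOf z = p ^ t := by rw [orderOf_eq_of_zpowers hz, hto]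
      have h3 : ¬ p ∣ k := by
        rintro ⟨l, rfl⟩
        have h4 : z ^ p ^ (t - 1) = 1 := by
          rw [← hk, ← pow_mul]
          apply orderOf_dvd_iff_pow_eq_one.mp
          rw [hto]
          refine ⟨l, ?_⟩
          obtain ⟨u, rfl⟩ : ∃ u, t = u + 1 := ⟨t - 1, by omega⟩
          rw [Nat.add_sub_cancel]
          ring
        have h5 := orderOf_dvd_of_pow_eq_one h4
        rw [h2] at h5
        have := (Nat.pow_dvd_pow_iff_le_right hp.out.one_lt).mp h5
        omega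
      exact ⟨x ^ k, orderOf_pow_prime hp.out hx h3, by rw [QuotientGroup.mk_pow, hk]⟩
    · rintro _ ⟨x, hx, rfl⟩
      obtain ⟨t, ht, hto⟩ := hord x hx
      rw [hto]
      obtain ⟨u, rfl⟩ : ∃ u, t = u + 1 := ⟨t - 1, by omega⟩
      rw [Nat.totient_prime_pow_succ hp.out]
      exact Dvd.dvd.mul_right (pow_dvd_pow p (by omega)) _
  have hX : Nat.card {x : G // orderOf x = p ^ (r + 2)} = Nat.card X := rfl
  rw [hX, hcard, hEc, pow_add, mul_comm]
  exact Nat.mul_dvd_mul_left _ hYd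

/-- Miller: in a noncyclic `p`-group, `p` odd, the number of cyclic subgroups of order `p ^ s` is
divisible by `p` for `s ≥ 2`. -/
theorem dvd_card_cyclic {p : ℕ} [hp : Fact p.Prime] (hp2 : p ≠ 2) (hG : IsPGroup p G)
    (hnc : ¬ IsCyclic G) {s : ℕ} (hs : 2 ≤ s) :
    p ∣ Nat.card {C : Subgroup G // IsCyclic C ∧ Nat.card C = p ^ s} := by
  have h1 := dvd_card_order hp2 hG hnc hs
  rw [card_order_eq] at h1
  obtain ⟨u, rfl⟩ : ∃ u, s = u + 1 := ⟨s - 1, by omega⟩
  rw [Nat.totient_prime_pow_succ hp.out, pow_succ, mul_assoc] at h1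
  have h2 := Nat.dvd_of_mul_dvd_mul_left (pow_pos hp.out.pos u) h1
  refine Nat.Coprime.dvd_of_dvd_mul_left ?_ h2
  rw [Nat.Prime.coprime_iff_not_dvd hp.out]
  intro h3
  have h4 := Nat.le_of_dvd (by have := hp.out.two_le; omega) h3
  have := hp.out.two_le
  omega

end Cfsg.Agent.H67.Mil
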