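import Cfsg.Agent.H67.Mil2

set_option autoImplicit false

/-! # Elements of order `p ^ s * m` as pairs (helper67) -/

namespace Cfsg.Agent.H67.Mil

open Subgroup

variable {G : Type*} [Group G] [Finite G]

/-- pairs (cyclic subgroup of order `a`, element of order `m` centralizing it) -/
def IsPair (a m : ℕ) (c : Subgroup G × G) : Prop :=
  IsCyclic c.1 ∧ Nat.card c.1 = a ∧ orderOf c.2 = m ∧ c.2 ∈ centralizer (c.1 : Set G)

theorem parts {a b i j : ℕ} (g : G) (h : orderOf g = a * b) (hab : a.Coprime b)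
    (hi1 : i ≡ 1 [MOD a]) (hi2 : i ≡ 0 [MOD b]) (hj1 : j ≡ 0 [MOD a]) (hj2 : j ≡ 1 [MOD b]) :
    g ^ i * g ^ j = g ∧ orderOf (g ^ i) = a ∧ orderOf (g ^ j) = b := by
  have hpos : orderOf g ≠ 0 := (orderOf_pos g).ne'
  have ha0 : a ≠ 0 := by rintro rfl; rw [zero_mul] at h; exact hpos h
  have hb0 : b ≠ 0 := by rintro rfl; rw [mul_zero] at h; exact hpos h
  refine ⟨?_, ?_, ?_⟩
  · rw [← pow_add]
    have : i + j ≡ 1 [MOD orderOf g] := by
      rw [h, ← Nat.modEq_and_modEq_iff_modEq_mul hab]
      exact ⟨hi1.add hj1, hi2.add hj2⟩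
    nth_rewrite 2 [← pow_one g]
    exact pow_eq_pow_iff_modEq.mpr this
  · have hbi : b ∣ i := (Nat.modEq_zero_iff_dvd).mp hi2
    obtain ⟨c, rfl⟩ := hbi
    have hac : a.Coprime c := by
      have h1 : Nat.gcd a (b * c) = 1 := by
        have := hi1.gcd_eq
        rw [Nat.gcd_comm a, this]; simp
      exact Nat.Coprime.coprime_mul_left_right h1
    rw [orderOf_pow, h, show a * b = b * a by ring, Nat.gcd_mul_left, hac, mul_one,
      Nat.mul_div_cancel_left _ (Nat.pos_of_ne_zero hb0)]
  · have hai : a ∣ j := (Nat.modEq_zero_iff_dvd).mp hj1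
    obtain ⟨c, rfl⟩ := hai
    have hbc : b.Coprime c := by
      have h1 : Nat.gcd b (a * c) = 1 := by
        have := hj2.gcd_eq
        rw [Nat.gcd_comm b, this]; simp
      exact Nat.Coprime.coprime_mul_left_right h1
    rw [orderOf_pow, h, Nat.gcd_mul_left, hbc, mul_one,
      Nat.mul_div_cancel_left _ (Nat.pos_of_ne_zero ha0)]

theorem card_pairs {a m : ℕ} (ham : a.Coprime m) :
    Nat.card {g : G // orderOf g = a * m} =
      a.totient * Nat.card {c : Subgroup G × G // IsPair a m c} := by
  classical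
  obtain ⟨i, hi1, hi2⟩ := Nat.chineseRemainder ham 1 0
  obtain ⟨j, hj1, hj2⟩ := Nat.chineseRemainder ham 0 1
  have hP := fun (g : G) (hg : orderOf g = a * m) => parts g hg ham hi1 hi2 hj1 hj2
  have : Fintype {c : Subgroup G × G // IsPair a m c} := Fintype.ofFinite _
  let f : {g : G // orderOf g = a * m} → {c : Subgroup G × G // IsPair a m c} :=
    fun g => ⟨(zpowers (g.1 ^ i), g.1 ^ j), inferInstance,
      by rw [Nat.card_zpowers]; exact (hP g.1 g.2).2.1, (hP g.1 g.2).2.2, by
        rw [mem_centralizer_iff]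
        intro h hh
        obtain ⟨k, rfl⟩ := mem_zpowers_iff.mp hh
        exact (((Commute.refl g.1).pow_pow i j).zpow_left k)⟩
  rw [Nat.card_congr (Equiv.sigmaFiberEquiv f).symm, Nat.card_sigma]
  have h : ∀ C : {c : Subgroup G × G // IsPair a m c}, Nat.card {x // f x = C} = a.totient := by
    rintro ⟨⟨C, y⟩, hC, hCn, hy, hyC⟩
    simp only at hC hCn hy hyC
    obtain ⟨x, hx⟩ := (Subgroup.isCyclic_iff_exists_zpowers_eq_top C).mp hC
    subst hx
    rw [Nat.card_zpowers] at hCn
    have hfib : a.totient = Nat.card {z : G // zpowers z = zpowers x} := by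
      rw [card_zp_fiber, hCn]
    rw [hfib]
    have hzy : ∀ z : G, zpowers z = zpowers x → Commute z y := by
      intro z hz
      rw [mem_centralizer_iff] at hyC
      exact hyC z (by rw [← hz]; exact mem_zpowers z)
    have hzi : ∀ z : G, zpowers z = zpowers x → (z * y) ^ i = z := by
      intro z hz
      rw [(hzy z hz).mul_pow]
      have h1 : z ^ i = z := by
        nth_rewrite 2 [← pow_one z]
        apply pow_eq_pow_iff_modEq.mpr
        rw [orderOf_eq_of_zpowers hz, hCn]
        exact hi1
      have h2 : y ^ i = 1 := by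
        apply orderOf_dvd_iff_pow_eq_one.mp
        rw [hy]
        exact (Nat.modEq_zero_iff_dvd).mp hi2
      rw [h1, h2, mul_one]
    have hzj : ∀ z : G, zpowers z = zpowers x → (z * y) ^ j = y := by
      intro z hz
      rw [(hzy z hz).mul_pow]
      have h1 : y ^ j = y := by
        nth_rewrite 2 [← pow_one y]
        apply pow_eq_pow_iff_modEq.mpr
        rw [hy]
        exact hj2
      have h2 : z ^ j = 1 := by
        apply orderOf_dvd_iff_pow_eq_one.mp
        rw [orderOf_eq_of_zpowers hz, hCn]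
        exact (Nat.modEq_zero_iff_dvd).mp hj1
      rw [h1, h2, one_mul]
    have hzo : ∀ z : G, zpowers z = zpowers x → orderOf (z * y) = a * m := by
      intro z hz
      have h1 : orderOf z = a := by rw [orderOf_eq_of_zpowers hz, hCn]
      have h2 := (hzy z hz).orderOf_mul_eq_mul_orderOf_of_coprime (by rw [h1, hy]; exact ham)
      rw [h2, h1, hy]
    refine Nat.card_congr ⟨fun z => ⟨z.1.1 ^ i, ?_⟩, fun z => ⟨⟨z.1 * y, hzo z.1 z.2⟩, ?_⟩,
      fun z => ?_, fun z => ?_⟩
    · have := congrArg (fun c => c.1.1) z.2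
      exact this
    · apply Subtype.ext
      change (zpowers ((z.1 * y) ^ i), (z.1 * y) ^ j) = _
      rw [hzi z.1 z.2, hzj z.1 z.2, z.2]
    · apply Subtype.ext
      apply Subtype.ext
      change z.1.1 ^ i * y = z.1.1
      have h1 : z.1.1 ^ j = y := congrArg (fun c => c.1.2) z.2
      have h3 := (hP z.1.1 z.1.2).1
      exact (congrArg (fun t => z.1.1 ^ i * t) h1).symm.trans h3
    · apply Subtype.ext
      exact hzi z.1 z.2
  simp only [h]
  rw [Finset.sum_const, Finset.card_univ, smul_eq_mul, mul_comm, ← Nat.card_eq_fintype_card]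

/-- `p`-group acting on pairs without fixed points. -/
theorem dvd_of_noFix {p : ℕ} [hp : Fact p.Prime] (P : Subgroup G) (hP : IsPGroup p P)
    (Q : Subgroup G × G → Prop)
    (hQ : ∀ h ∈ P, ∀ c, Q c → Q (c.1.map (MulAut.conj h).toMonoidHom, h * c.2 * h⁻¹))
    (hfix : ∀ c, Q c → (∀ h ∈ P, c.1.map (MulAut.conj h).toMonoidHom = c.1) →
      (∀ h ∈ P, h * c.2 * h⁻¹ = c.2) → False) :
    p ∣ Nat.card {c // Q c} := by
  classical
  let act : MulAction P {c // Q c} :=
    { smul := fun h c => ⟨(c.1.1.map (MulAut.conj (h : G)).toMonoidHom, (h : G) * c.1.2 * (h : G)⁻¹),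
        hQ h h.2 c.1 c.2⟩
      one_smul := fun c => by
        apply Subtype.ext
        apply Prod.ext
        · change c.1.1.map (MulAut.conj ((1 : P) : G)).toMonoidHom = c.1.1
          rw [Subgroup.coe_one, map_one]
          exact Subgroup.map_id _
        · change ((1 : P) : G) * c.1.2 * ((1 : P) : G)⁻¹ = c.1.2
          simp
      mul_smul := fun g h c => by
        apply Subtype.ext
        apply Prod.ext
        · change c.1.1.map (MulAut.conj ((g * h : P) : G)).toMonoidHom =
            (c.1.1.map (MulAut.conj (h : G)).toMonoidHom).map (MulAut.conj (g : G)).toMonoidHom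
          rw [Subgroup.map_map, Subgroup.coe_mul, map_mul]
          rfl
        · change ((g * h : P) : G) * c.1.2 * ((g * h : P) : G)⁻¹ =
            (g : G) * ((h : G) * c.1.2 * (h : G)⁻¹) * (g : G)⁻¹
          rw [Subgroup.coe_mul]
          group }
  have h1 := hP.card_modEq_card_fixedPoints {c // Q c}
  have h2 : Nat.card (MulAction.fixedPoints P {c // Q c}) = 0 := by
    have : IsEmpty (MulAction.fixedPoints P {c // Q c}) := by
      refine ⟨fun c => ?_⟩
      refine hfix c.1.1 c.1.2 ?_ ?_
      · intro h hh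
        have := c.2 ⟨h, hh⟩
        exact congrArg (fun c => c.1.1) this
      · intro h hh
        have := c.2 ⟨h, hh⟩
        exact congrArg (fun c => c.1.2) this
    exact Nat.card_of_isEmpty
  rw [h2] at h1
  exact (Nat.modEq_zero_iff_dvd).mp h1

end Cfsg.Agent.H67.Mil
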