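import Cfsg.Agent.H67.Mil3

set_option autoImplicit false

/-! # Elements of order `p ^ s * m` (helper67) -/

namespace Cfsg.Agent.H67.Mil

open Subgroup

variable {G : Type*} [Group G] [Finite G]

theorem isPair_conj {a m : ℕ} {c : Subgroup G × G} (hc : IsPair a m c) (h : G) :
    IsPair a m (c.1.map (MulAut.conj h).toMonoidHom, h * c.2 * h⁻¹) := by
  obtain ⟨h1, h2, h3, h4⟩ := hc
  refine ⟨?_, ?_, ?_, ?_⟩
  · have e := c.1.equivMapOfInjective (MulAut.conj h).toMonoidHom (MulAut.conj h).injective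
    exact isCyclic_of_surjective e e.surjective
  · rw [← h2]
    exact (Nat.card_congr (c.1.equivMapOfInjective (MulAut.conj h).toMonoidHom
      (MulAut.conj h).injective).toEquiv).symm
  · simp only
    rw [orderOf_conj_eq, h3]
  · simp only
    rw [mem_centralizer_iff] at h4 ⊢
    rintro _ ⟨x, hx, rfl⟩
    have h5 := h4 x hx
    change h * x * h⁻¹ * (h * c.2 * h⁻¹) = h * c.2 * h⁻¹ * (h * x * h⁻¹)
    calc h * x * h⁻¹ * (h * c.2 * h⁻¹) = h * (x * c.2) * h⁻¹ := by group
      _ = h * (c.2 * x) * h⁻¹ := by rw [h5]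
      _ = _ := by group

theorem card_D {p : ℕ} (P : Subgroup G) (s m : ℕ) :
    Nat.card {c : Subgroup G × G // IsPair (p ^ s) m c ∧ (c.1 ≤ P ∧ c.2 ∈ centralizer (P : Set G))} =
      Nat.card {C : Subgroup P // IsCyclic C ∧ Nat.card C = p ^ s} *
        Nat.card {y : G // orderOf y = m ∧ y ∈ centralizer (P : Set G)} := by
  rw [← Nat.card_prod]
  refine Nat.card_congr ⟨fun c => (⟨c.1.1.subgroupOf P, ?_⟩, ⟨c.1.2, c.2.1.2.2.1, c.2.2.2⟩),
    fun c => ⟨(c.1.1.map P.subtype, c.2.1), ?_⟩, fun c => ?_, fun c => ?_⟩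
  · have e := Subgroup.subgroupOfEquivOfLe c.2.2.1
    have h1 : IsCyclic c.1.1 := c.2.1.1
    refine ⟨isCyclic_of_surjective e.symm e.symm.surjective, ?_⟩
    rw [Nat.card_congr e.toEquiv]
    exact c.2.1.2.1
  · have e := c.1.1.equivMapOfInjective P.subtype P.subtype_injective
    have h1 : IsCyclic c.1.1 := c.1.2.1
    refine ⟨⟨isCyclic_of_surjective e e.surjective, ?_, c.2.2.1, ?_⟩, Subgroup.map_subtype_le _, c.2.2.2⟩
    · exact (Nat.card_congr e.toEquiv).symm.trans c.1.2.2
    · exact centralizer_le (Subgroup.map_subtype_le _) c.2.2.2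
  · apply Subtype.ext
    apply Prod.ext
    · exact Subgroup.map_subgroupOf_eq_of_le c.2.2.1
    · rfl
  · apply Prod.ext
    · apply Subtype.ext
      exact Subgroup.comap_map_eq_self_of_injective P.subtype_injective c.1.1
    · rfl

theorem dvd_pairs {p : ℕ} [hp : Fact p.Prime] (hp2 : p ≠ 2) (P : Sylow p G)
    (hP : ¬ IsCyclic ↥(P : Subgroup G)) {s m : ℕ} (hs : 2 ≤ s) :
    p ∣ Nat.card {c : Subgroup G × G // IsPair (p ^ s) m c} := by
  classical
  have h1 : Nat.card {c : Subgroup G × G // IsPair (p ^ s) m c} =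
      Nat.card {c : Subgroup G × G // IsPair (p ^ s) m c ∧
        (c.1 ≤ (P : Subgroup G) ∧ c.2 ∈ centralizer ((P : Subgroup G) : Set G))} +
      Nat.card {c : Subgroup G × G // IsPair (p ^ s) m c ∧
        ¬ (c.1 ≤ (P : Subgroup G) ∧ c.2 ∈ centralizer ((P : Subgroup G) : Set G))} := by
    rw [← Nat.card_sum]
    refine Nat.card_congr ?_
    refine (Equiv.sumCompl (fun c : {c : Subgroup G × G // IsPair (p ^ s) m c} =>
      c.1.1 ≤ (P : Subgroup G) ∧ c.1.2 ∈ centralizer ((P : Subgroup G) : Set G))).symm.trans ?_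
    exact Equiv.sumCongr
      (Equiv.subtypeSubtypeEquivSubtypeInter (fun c => IsPair (p ^ s) m c)
        (fun c : Subgroup G × G => c.1 ≤ (P : Subgroup G) ∧
          c.2 ∈ centralizer ((P : Subgroup G) : Set G)))
      (Equiv.subtypeSubtypeEquivSubtypeInter (fun c => IsPair (p ^ s) m c)
        (fun c : Subgroup G × G => ¬ (c.1 ≤ (P : Subgroup G) ∧
          c.2 ∈ centralizer ((P : Subgroup G) : Set G))))
  rw [h1]
  apply dvd_add
  · rw [card_D]
    exact Dvd.dvd.mul_right (dvd_card_cyclic hp2 P.isPGroup' hP hs) _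
  · apply dvd_of_noFix (P : Subgroup G) P.isPGroup'
    · rintro h hh c ⟨hc1, hc2⟩
      refine ⟨isPair_conj hc1 h, fun hc3 => hc2 ⟨?_, ?_⟩⟩
      · intro x hx
        have h2 : h * x * h⁻¹ ∈ (P : Subgroup G) := hc3.1 ⟨x, hx, rfl⟩
        have h3 := mul_mem (mul_mem (inv_mem hh) h2) hh
        have h4 : h⁻¹ * (h * x * h⁻¹) * h = x := by group
        rwa [h4] at h3
      · have h2 := hc3.2
        simp only at h2
        rw [mem_centralizer_iff] at h2 ⊢
        intro x hx
        have h3 := h2 (h * x * h⁻¹) (mul_mem (mul_mem hh hx) (inv_mem hh))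
        calc x * c.2 = h⁻¹ * (h * x * h⁻¹ * (h * c.2 * h⁻¹)) * h := by group
          _ = h⁻¹ * (h * c.2 * h⁻¹ * (h * x * h⁻¹)) * h := by rw [h3]
          _ = c.2 * x := by group
    · rintro c ⟨hc1, hc2⟩ hf1 hf2
      apply hc2
      refine ⟨?_, ?_⟩
      · have hCp : IsPGroup p c.1 := IsPGroup.of_card hc1.2.1
        have hN : (P : Subgroup G) ≤ normalizer (c.1 : Set G) := by
          intro h hh
          rw [mem_normalizer_iff]
          intro x
          constructor
          · intro hx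
            change h * x * h⁻¹ ∈ c.1
            rw [← hf1 h hh]
            exact ⟨x, hx, rfl⟩
          · intro hx
            have hx' : h * x * h⁻¹ ∈ c.1.map (MulAut.conj h).toMonoidHom := by
              rw [hf1 h hh]; exact hx
            obtain ⟨y, hy, hyx⟩ := hx'
            have hyx' : h * y * h⁻¹ = h * x * h⁻¹ := hyx
            have : y = x := mul_left_cancel (mul_right_cancel hyx')
            rw [← this]; exact hy
        have h3 : IsPGroup p ((P : Subgroup G) ⊔ c.1 : Subgroup G) :=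
          IsPGroup.to_sup_of_normal_right' P.isPGroup' hCp hN
        have h4 := P.is_maximal' h3 le_sup_left
        rw [← h4]
        exact le_sup_right
      · rw [mem_centralizer_iff]
        intro h hh
        have h2 := hf2 h hh
        calc h * c.2 = (h * c.2 * h⁻¹) * h := by group
          _ = c.2 * h := by rw [h2]

theorem dvd_card_mul {p : ℕ} [hp : Fact p.Prime] (hp2 : p ≠ 2) (P : Sylow p G)
    (hP : ¬ IsCyclic ↥(P : Subgroup G)) {s m : ℕ} (hs : 2 ≤ s) (hm : p.Coprime m) :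
    p ^ s ∣ Nat.card {g : G // orderOf g = p ^ s * m} := by
  rw [card_pairs (Nat.Coprime.pow_left s hm)]
  obtain ⟨u, rfl⟩ : ∃ u, s = u + 1 := ⟨s - 1, by omega⟩
  have h1 := dvd_pairs hp2 P hP (m := m) hs
  obtain ⟨k, hk⟩ := h1
  rw [hk, Nat.totient_prime_pow_succ hp.out]
  exact ⟨(p - 1) * k, by ring⟩

end Cfsg.Agent.H67.Mil
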