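import Cfsg.Agent.H67.FpfThree
import Cfsg.Agent.H67.OrderSix
import Cfsg.Agent.H67.Basic
import Cfsg.Agent.H91.SolvPCore
import Cfsg.Agent.BSW.Syl2
import Cfsg.Agent.S0144
import Cfsg.Agent.S0058
import Cfsg.Agent.S0016

set_option autoImplicit false

/-! # Groups with element orders 1, 2, 3, 4 (helper67) -/

namespace Cfsg.Agent.H67.Ord4

open Subgroup

/-- hypothesis -/
structure Hyp (G : Type*) [Group G] : Prop where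
  le4 : ∀ g : G, orderOf g = 1 ∨ orderOf g = 2 ∨ orderOf g = 3 ∨ orderOf g = 4
  ex4 : ∃ g : G, orderOf g = 4
  ex3 : ∃ g : G, orderOf g = 3

theorem hyp_of_range {G : Type*} [Group G]
    (h : Set.range (orderOf : G → ℕ) = {k : ℕ | 1 ≤ k ∧ k ≤ 4}) : Hyp G where
  le4 := fun g => by
    have : orderOf g ∈ {k : ℕ | 1 ≤ k ∧ k ≤ 4} := h ▸ ⟨g, rfl⟩
    obtain ⟨h1, h2⟩ := this
    omega
  ex4 := by
    have : (4 : ℕ) ∈ Set.range (orderOf : G → ℕ) := by rw [h]; exact ⟨by norm_num, by norm_num⟩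
    exact this
  ex3 := by
    have : (3 : ℕ) ∈ Set.range (orderOf : G → ℕ) := by rw [h]; exact ⟨by norm_num, by norm_num⟩
    exact this

section fpf

/-- from a fixed-point-free action of an element of order three -/
theorem nrm_of_fpf {N : Type*} [Group N] [Finite N] (φ : N →* N) (h3 : ∀ g, φ (φ (φ g)) = g)
    (hf : ∀ g, φ g = g → g = 1) :
    Fpf3.Nrm φ ∧ ∀ g : N, ∃ c, φ c * c⁻¹ = g := by
  have hinj : Function.Injective (fun c : N => φ c * c⁻¹) := by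
    intro c d hcd
    have h1 : φ c * c⁻¹ = φ d * d⁻¹ := hcd
    have h2 : φ (d⁻¹ * c) = d⁻¹ * c := by
      rw [map_mul, map_inv]
      calc (φ d)⁻¹ * φ c = (φ d)⁻¹ * (φ c * c⁻¹) * c := by group
        _ = (φ d)⁻¹ * (φ d * d⁻¹) * c := by rw [h1]
        _ = d⁻¹ * c := by group
    have h3 := hf _ h2
    exact (inv_mul_eq_one.mp h3).symm
  have hsurj : ∀ g : N, ∃ c, φ c * c⁻¹ = g := Finite.injective_iff_surjective.mp hinj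
  refine ⟨⟨?_, ?_, h3⟩, hsurj⟩
  · intro g
    obtain ⟨d, hd⟩ := hsurj g⁻¹
    have hg : g = d * (φ d)⁻¹ := by
      rw [← inv_inv g, ← hd]; group
    rw [hg]
    simp only [map_mul, map_inv, h3]
    group
  · intro g
    obtain ⟨c, rfl⟩ := hsurj g
    simp only [map_mul, map_inv, h3]
    group

/-- the key computation in class two -/
theorem sq_eq_one {N : Type*} [Group N] {a a' a'' n : N} (hc : ∀ u v : N, u⁻¹ * v⁻¹ * u * v ∈ center N)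
    (h4 : n ^ 4 = 1) (h1 : a * a' * a'' = 1) (hcomm : a * a' = a' * a)
    (e1 : (a * n) ^ 2 = 1) (e2 : (a' * n) ^ 2 = 1) (e3 : (a'' * n) ^ 2 = 1) : n ^ 2 = 1 := by
  have hc' : ∀ u w : N, (u⁻¹ * n * u * n⁻¹) * w = w * (u⁻¹ * n * u * n⁻¹) := by
    intro u w
    have := hc u n⁻¹
    rw [inv_inv, mem_center_iff] at this
    exact (this w).symm
  have key : ∀ u : N, (u * n) ^ 2 = 1 → u ^ 2 * (u⁻¹ * n * u * n⁻¹) * n ^ 2 = 1 := by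
    intro u hu
    rw [← hu, pow_two, pow_two, pow_two]; group
  have hmul : ∀ u v : N, (u * v)⁻¹ * n * (u * v) * n⁻¹ =
      (u⁻¹ * n * u * n⁻¹) * (v⁻¹ * n * v * n⁻¹) := by
    intro u v
    calc (u * v)⁻¹ * n * (u * v) * n⁻¹ = v⁻¹ * ((u⁻¹ * n * u * n⁻¹) * (n * v * n⁻¹)) := by group
      _ = v⁻¹ * ((n * v * n⁻¹) * (u⁻¹ * n * u * n⁻¹)) := by rw [hc']
      _ = (v⁻¹ * n * v * n⁻¹) * (u⁻¹ * n * u * n⁻¹) := by group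
      _ = _ := by rw [hc' u]
  have k1 := key a e1
  have k2 := key a' e2
  have k3 := key a'' e3
  have c123 : (a⁻¹ * n * a * n⁻¹) * (a'⁻¹ * n * a' * n⁻¹) * (a''⁻¹ * n * a'' * n⁻¹) = 1 := by
    rw [← hmul, ← hmul, h1]; group
  set c := a⁻¹ * n * a * n⁻¹ with hcd
  set c' := a'⁻¹ * n * a' * n⁻¹ with hcd'
  set c'' := a''⁻¹ * n * a'' * n⁻¹ with hcd''
  have z1 : ∀ w, c * w = w * c := hc' a
  have z2 : ∀ w, c' * w = w * c' := hc' a'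
  have z3 : ∀ w, c'' * w = w * c'' := hc' a''
  have ha'' : a'' = (a * a')⁻¹ := (inv_eq_of_mul_eq_one_right h1).symm
  have hsq : a ^ 2 * a' ^ 2 * a'' ^ 2 = 1 := by
    rw [ha'', inv_pow, (show Commute a a' from hcomm).mul_pow]
    group
  have f1 : a ^ 2 = (n ^ 2)⁻¹ * c⁻¹ := by
    calc a ^ 2 = (a ^ 2 * c * n ^ 2) * (n ^ 2)⁻¹ * c⁻¹ := by group
      _ = _ := by rw [k1, one_mul]
  have f2 : a' ^ 2 = (n ^ 2)⁻¹ * c'⁻¹ := by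
    calc a' ^ 2 = (a' ^ 2 * c' * n ^ 2) * (n ^ 2)⁻¹ * c'⁻¹ := by group
      _ = _ := by rw [k2, one_mul]
  have f3 : a'' ^ 2 = (n ^ 2)⁻¹ * c''⁻¹ := by
    calc a'' ^ 2 = (a'' ^ 2 * c'' * n ^ 2) * (n ^ 2)⁻¹ * c''⁻¹ := by group
      _ = _ := by rw [k3, one_mul]
  rw [f1, f2, f3] at hsq
  have z1' : c⁻¹ * (n ^ 2)⁻¹ = (n ^ 2)⁻¹ * c⁻¹ := ((show Commute c (n ^ 2) from z1 _).inv_inv).eq
  have z2' : c'⁻¹ * (n ^ 2)⁻¹ = (n ^ 2)⁻¹ * c'⁻¹ := ((show Commute c' (n ^ 2) from z2 _).inv_inv).eq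
  have z12 : c⁻¹ * c'⁻¹ = c'⁻¹ * c⁻¹ := ((show Commute c c' from z1 _).inv_inv).eq
  have hfin : ((n ^ 2)⁻¹) ^ 3 * (c * c' * c'')⁻¹ = 1 := by
    rw [← hsq]
    calc ((n ^ 2)⁻¹) ^ 3 * (c * c' * c'')⁻¹
        = (n ^ 2)⁻¹ * (n ^ 2)⁻¹ * (n ^ 2)⁻¹ * (c''⁻¹ * (c'⁻¹ * c⁻¹)) := by
          rw [pow_succ, pow_two]; group
      _ = (n ^ 2)⁻¹ * (n ^ 2)⁻¹ * (n ^ 2)⁻¹ * ((c'⁻¹ * c⁻¹) * c''⁻¹) := by
          rw [((show Commute c'' (c'⁻¹ * c⁻¹) from z3 _).inv_left).eq]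
      _ = (n ^ 2)⁻¹ * (n ^ 2)⁻¹ * (n ^ 2)⁻¹ * ((c⁻¹ * c'⁻¹) * c''⁻¹) := by rw [z12]
      _ = (n ^ 2)⁻¹ * (n ^ 2)⁻¹ * (c⁻¹ * (n ^ 2)⁻¹) * c'⁻¹ * c''⁻¹ := by rw [z1']; group
      _ = (n ^ 2)⁻¹ * ((n ^ 2)⁻¹ * c⁻¹) * (c'⁻¹ * (n ^ 2)⁻¹) * c''⁻¹ := by rw [z2']; group
      _ = (n ^ 2)⁻¹ * (c⁻¹ * (n ^ 2)⁻¹) * (c'⁻¹ * (n ^ 2)⁻¹) * c''⁻¹ := by rw [z1']
      _ = _ := by group
  rw [c123, inv_one, mul_one] at hfin
  have h6 : n ^ 6 = 1 := by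
    have : ((n ^ 2)⁻¹) ^ 3 = (n ^ 6)⁻¹ := by rw [inv_pow, ← pow_mul]
    rw [this] at hfin
    exact inv_eq_one.mp hfin
  calc n ^ 2 = n ^ 6 * (n ^ 4)⁻¹ := by group
    _ = 1 := by rw [h6, h4]; group

end fpf

end Cfsg.Agent.H67.Ord4
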