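import Cfsg.Agent.H67.Ord4

set_option autoImplicit false

/-! # Groups with element orders 1, 2, 3, 4: normal 3-subgroup (helper67) -/

namespace Cfsg.Agent.H67.Ord4

open Subgroup

universe u

variable {G : Type u} [Group G] [Finite G]

theorem card_eq (h : Hyp G) : ∃ a b : ℕ, Nat.card G = 2 ^ a * 3 ^ b := by
  obtain ⟨a, m, hm, hGm⟩ := Nat.exists_eq_pow_mul_and_not_dvd (n := Nat.card G) Nat.card_pos.ne' 2 (by norm_num)
  have hm0 : m ≠ 0 := by rintro rfl; exact hm (dvd_zero 2)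
  obtain ⟨b, k, hk, hmk⟩ := Nat.exists_eq_pow_mul_and_not_dvd (n := m) hm0 3 (by norm_num)
  have hk1 : k = 1 := by
    by_contra hne
    obtain ⟨p, hp, hpk⟩ := Nat.exists_prime_and_dvd hne
    have : Fact p.Prime := ⟨hp⟩
    have hpm : p ∣ m := hmk ▸ hpk.mul_left _
    have hpG : p ∣ Nat.card G := hGm ▸ hpm.mul_left _
    obtain ⟨x, hx⟩ := exists_prime_orderOf_dvd_card' (G := G) p hpG
    have h1 := h.le4 x
    rw [hx] at h1
    rcases h1 with h1 | h1 | h1 | h1
    · exact hp.one_lt.ne' h1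
    · subst h1; exact hm hpm
    · subst h1; exact hk hpk
    · subst h1; exact absurd hp (by norm_num)
  exact ⟨a, b, by rw [hGm, hmk, hk1, mul_one]⟩

theorem solvable (h : Hyp G) : Group.IsSolvable G := by
  obtain ⟨a, b, hab⟩ := card_eq h
  exact S0144.result 2 3 a b (by norm_num) (by norm_num) hab

omit [Finite G] in
/-- no commuting elements of orders 2 and 3 -/
theorem no_comm (h : Hyp G) {x y : G} (hx : orderOf x = 2) (hy : orderOf y = 3)
    (hxy : x * y = y * x) : False := by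
  have h1 := (show Commute x y from hxy).orderOf_mul_eq_mul_orderOf_of_coprime
    (by rw [hx, hy]; norm_num)
  rw [hx, hy] at h1
  have h2 := h.le4 (x * y)
  omega

omit [Finite G] in
/-- even order and commuting with an element of order 3 -/
theorem no_comm' (h : Hyp G) {x y : G} (hx : 2 ∣ orderOf x) (hy : orderOf y = 3)
    (hxy : x * y = y * x) : False := by
  rcases h.le4 x with h1 | h1 | h1 | h1
  · omega
  · exact no_comm h h1 hy hxy
  · omega
  · have h2 : orderOf (x ^ 2) = 2 := by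
      rw [orderOf_pow' x (by norm_num), h1]; norm_num
    exact no_comm h h2 hy ((show Commute x y from hxy).pow_left 2).eq

theorem pow_four (h : Hyp G) {x : G} {k : ℕ} (hx : x ^ 2 ^ k = 1) : x ^ 4 = 1 := by
  have h1 := orderOf_dvd_of_pow_eq_one hx
  apply orderOf_dvd_iff_pow_eq_one.mp
  rcases h.le4 x with h2 | h2 | h2 | h2
  · rw [h2]; norm_num
  · rw [h2]; norm_num
  · rw [h2] at h1
    have := (Nat.prime_dvd_prime_iff_eq (by norm_num) (by norm_num)).mp (Nat.Prime.dvd_of_dvd_pow (by norm_num) h1)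
    omega
  · rw [h2]

theorem orderOf_pgroup (h : Hyp G) {x : G} {k : ℕ} (hx : x ^ 3 ^ k = 1) (hx1 : x ≠ 1) :
    orderOf x = 3 := by
  have h1 := orderOf_dvd_of_pow_eq_one hx
  have h2' : ¬ 2 ∣ orderOf x := by
    intro h2
    have := (Nat.prime_dvd_prime_iff_eq (by norm_num) (by norm_num)).mp
      (Nat.Prime.dvd_of_dvd_pow (by norm_num) (h2.trans h1))
    omega
  rcases h.le4 x with h2 | h2 | h2 | h2
  · exact absurd (orderOf_eq_one_iff.mp h2) hx1
  · exact absurd (by rw [h2]) h2'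
  · exact h2
  · exact absurd (by rw [h2]; norm_num) h2'

/-- 2-groups with a unique involution and exponent four -/
theorem two_group {S : Type*} [Group S] [Finite S] (hS : IsPGroup 2 S) (h4 : ∀ x : S, x ^ 4 = 1)
    (hex : ∃ x : S, orderOf x = 4) (hu : ∀ x y : S, orderOf x = 2 → orderOf y = 2 → x = y) :
    (IsCyclic S ∧ Nat.card S = 4) ∨ Nonempty (S ≃* QuaternionGroup 2) := by
  have : Fact (Nat.Prime 2) := ⟨Nat.prime_two⟩
  have hcyc : IsCyclic S → Nat.card S = 4 := by
    intro hc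
    obtain ⟨g, hg⟩ := IsCyclic.exists_generator (α := S)
    have h1 : orderOf g = Nat.card S := orderOf_eq_card_of_forall_mem_zpowers hg
    have h2 : Nat.card S ∣ 4 := by rw [← h1]; exact orderOf_dvd_of_pow_eq_one (h4 g)
    obtain ⟨x, hx⟩ := hex
    have h3 : 4 ∣ Nat.card S := hx ▸ orderOf_dvd_natCard x
    exact Nat.dvd_antisymm h2 h3
  have huniq : ∀ H K : Subgroup S, Nat.card H = 2 → Nat.card K = 2 → H = K := by
    intro H K hH hK
    obtain ⟨x, hx⟩ := exists_prime_orderOf_dvd_card' (G := H) 2 (by rw [hH])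
    obtain ⟨y, hy⟩ := exists_prime_orderOf_dvd_card' (G := K) 2 (by rw [hK])
    have hx' : orderOf (x : S) = 2 := by rw [Subgroup.orderOf_coe, hx]
    have hy' : orderOf (y : S) = 2 := by rw [Subgroup.orderOf_coe, hy]
    have hxy := hu x y hx' hy'
    have h1 : zpowers (x : S) = H :=
      Subgroup.eq_of_le_of_card_ge (zpowers_le.mpr x.2) (by rw [Nat.card_zpowers, hx', hH])
    have h2 : zpowers (y : S) = K :=
      Subgroup.eq_of_le_of_card_ge (zpowers_le.mpr y.2) (by rw [Nat.card_zpowers, hy', hK])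
    rw [← h1, ← h2, hxy]
  rcases S0016.result 2 hS huniq with h1 | ⟨-, n, ⟨e⟩⟩
  · exact Or.inl ⟨h1, hcyc h1⟩
  · have h1 : orderOf (e.symm (QuaternionGroup.a 1)) = 2 * 2 ^ n := by
      rw [MulEquiv.orderOf_eq, QuaternionGroup.orderOf_a_one]
    have h2 : 2 * 2 ^ n ∣ 4 := by rw [← h1]; exact orderOf_dvd_of_pow_eq_one (h4 _)
    have hn : n ≤ 1 := by
      by_contra hlt
      have h3 : 2 ^ 3 ∣ 2 * 2 ^ n := by
        rw [← pow_succ']
        exact pow_dvd_pow 2 (by omega)
      have := Nat.le_of_dvd (by norm_num) (h3.trans h2)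
      norm_num at this
    interval_cases n
    · left
      have h3 : Nat.card S = 4 := by
        rw [Nat.card_congr e.toEquiv]
        have := QuaternionGroup.card (n := 2 ^ 0)
        rw [Nat.card_eq_fintype_card, this]
        norm_num
      obtain ⟨x, hx⟩ := hex
      exact ⟨isCyclic_of_orderOf_eq_card x (by rw [hx, h3]), h3⟩
    · right
      exact ⟨e⟩

theorem caseB (h : Hyp G) (hN : Cfsg.pPrimeCore 3 G = ⊥) :
    IsElementaryAbelian 3 (Cfsg.pCore 3 G) ∧
      ((IsCyclic (G ⧸ Cfsg.pCore 3 G) ∧ (Cfsg.pCore 3 G).index = 4) ∨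
        Nonempty (G ⧸ Cfsg.pCore 3 G ≃* QuaternionGroup 2)) := by
  classical
  have : Fact (Nat.Prime 2) := ⟨Nat.prime_two⟩
  have : Fact (Nat.Prime 3) := ⟨Nat.prime_three⟩
  have hsol := solvable h
  have hC := H91.centralizer_pCore_le 3 hN
  set N := Cfsg.pCore 3 G with hNdef
  have hNn : N.Normal := Solv.pCore_normal 3
  have hN3 : IsPGroup 3 N := Solv.pCore_isPGroup 3
  have hn3 : ∀ n ∈ N, n ≠ 1 → orderOf n = 3 := by
    intro n hn hn1
    obtain ⟨k, hk⟩ := hN3 ⟨n, hn⟩
    exact orderOf_pgroup h (congrArg Subtype.val hk) hn1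
  -- involutions invert N
  have hinv : ∀ z : G, orderOf z = 2 → ∀ n ∈ N, z * n * z⁻¹ = n⁻¹ := by
    intro z hz
    have hz2 : z * z = 1 := by
      have := pow_orderOf_eq_one z
      rwa [hz, pow_two] at this
    have hfix : ∀ n ∈ N, z * n * z⁻¹ = n → n = 1 := by
      intro n hn hzn
      by_contra hn1
      refine no_comm h hz (hn3 n hn hn1) ?_
      calc z * n = (z * n * z⁻¹) * z := by group
        _ = n * z := by rw [hzn]
    let f : N → N := fun n => ⟨(n : G)⁻¹ * (z * n * z⁻¹), N.mul_mem (N.inv_mem n.2) (hNn.conj_mem _ n.2 z)⟩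
    have hf : Function.Injective f := by
      intro a b hab
      have h1 : (a : G)⁻¹ * (z * a * z⁻¹) = (b : G)⁻¹ * (z * b * z⁻¹) := congrArg Subtype.val hab
      have h2 : z * ((a : G) * (b : G)⁻¹) * z⁻¹ = (a : G) * (b : G)⁻¹ := by
        calc z * ((a : G) * (b : G)⁻¹) * z⁻¹
            = a * ((a : G)⁻¹ * (z * a * z⁻¹)) * (z * b * z⁻¹)⁻¹ := by group
          _ = a * ((b : G)⁻¹ * (z * b * z⁻¹)) * (z * b * z⁻¹)⁻¹ := by rw [h1]
          _ = _ := by group
      have h3 := hfix _ (N.mul_mem a.2 (N.inv_mem b.2)) h2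
      exact Subtype.ext (mul_inv_eq_one.mp h3)
    have hsurj : Function.Surjective f := Finite.injective_iff_surjective.mp hf
    intro n hn
    obtain ⟨m, hm⟩ := hsurj ⟨n, hn⟩
    have h1 : (m : G)⁻¹ * (z * m * z⁻¹) = n := congrArg Subtype.val hm
    rw [← h1]
    have hzi : z⁻¹ = z := inv_eq_of_mul_eq_one_right hz2
    calc z * ((m : G)⁻¹ * (z * m * z⁻¹)) * z⁻¹ = z * (m : G)⁻¹ * z * m * (z * z)⁻¹ := by group
      _ = z * (m : G)⁻¹ * z * m := by rw [hz2]; group
      _ = z * (m : G)⁻¹ * z⁻¹ * m := by rw [hzi]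
      _ = _ := by group
  -- existence of an involution
  obtain ⟨g4, hg4⟩ := h.ex4
  have hz : orderOf (g4 ^ 2) = 2 := by rw [orderOf_pow' g4 (by norm_num), hg4]; norm_num
  set z := g4 ^ 2 with hzdef
  have hNab : ∀ a ∈ N, ∀ b ∈ N, a * b = b * a := by
    intro a ha b hb
    have h1 := hinv z hz (a * b) (N.mul_mem ha hb)
    have h2 : z * (a * b) * z⁻¹ = (z * a * z⁻¹) * (z * b * z⁻¹) := by group
    rw [h2, hinv z hz a ha, hinv z hz b hb] at h1
    calc a * b = ((a * b)⁻¹)⁻¹ := by group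
      _ = (a⁻¹ * b⁻¹)⁻¹ := by rw [h1]
      _ = b * a := by group
  have hNel : IsElementaryAbelian 3 N := by
    refine ⟨⟨⟨fun a b => Subtype.ext (hNab a a.2 b b.2)⟩⟩, fun a ha => ?_⟩
    by_cases ha1 : a = 1
    · rw [ha1, one_pow]
    · rw [← hn3 a ha ha1]; exact pow_orderOf_eq_one a
  refine ⟨hNel, ?_⟩
  -- involutions are congruent mod N
  have hzN : ∀ z' : G, orderOf z' = 2 → z⁻¹ * z' ∈ N := by
    intro z' hz'
    apply hC
    rw [mem_centralizer_iff]
    intro n hn
    have h1 := hinv z hz n hn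
    have h2 := hinv z' hz' n hn
    have h3 : z⁻¹ * n⁻¹ * z = n := by
      rw [← h1]; group
    calc n * (z⁻¹ * z') = (z⁻¹ * n⁻¹ * z) * (z⁻¹ * z') := by rw [h3]
      _ = z⁻¹ * n⁻¹ * z' := by group
      _ = z⁻¹ * (z' * n * z'⁻¹) * z' := by rw [h2]
      _ = _ := by group
  have hzNot : ∀ z' : G, orderOf z' = 2 → z' ∉ N := by
    intro z' hz' hmem
    have h1 : z' ≠ 1 := by
      rintro rfl
      rw [orderOf_one] at hz'
      omega
    have := hn3 z' hmem h1
    omega
  -- the quotient is a 2-group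
  have hQ2 : ¬ 3 ∣ Nat.card (G ⧸ N) := by
    intro h3
    obtain ⟨r, hr⟩ := exists_prime_orderOf_dvd_card' (G := G ⧸ N) 3 h3
    obtain ⟨g, rfl⟩ := QuotientGroup.mk_surjective r
    have hzq : orderOf (QuotientGroup.mk z : G ⧸ N) = 2 := by
      apply orderOf_eq_prime
      · rw [← QuotientGroup.mk_pow, ← hz, pow_orderOf_eq_one, QuotientGroup.mk_one]
      · intro h1
        exact hzNot z hz ((QuotientGroup.eq_one_iff _).mp h1)
    have hcomm : (QuotientGroup.mk z : G ⧸ N) * QuotientGroup.mk g = QuotientGroup.mk g * QuotientGroup.mk z := by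
      rw [← QuotientGroup.mk_mul, ← QuotientGroup.mk_mul, QuotientGroup.eq]
      have h1 : orderOf (g⁻¹ * z * g) = 2 := by
        have := orderOf_conj_eq g⁻¹ z
        rw [inv_inv] at this
        rw [this, hz]
      have h2 := hzN _ h1
      have h3 : (z * g)⁻¹ * (g * z) = (z⁻¹ * (g⁻¹ * z * g))⁻¹ *
          ((z⁻¹ * (g⁻¹ * z * g)) * ((z * g)⁻¹ * (g * z))) := by group
      have hz2 : z⁻¹ = z := by
        have h5 := pow_orderOf_eq_one z
        rw [hz, pow_two] at h5
        exact inv_eq_of_mul_eq_one_right h5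
      have h4 : (z * g)⁻¹ * (g * z) = (z⁻¹ * (g⁻¹ * z * g))⁻¹ := by
        have h5 : (z⁻¹ * (g⁻¹ * z * g))⁻¹ = g⁻¹ * z⁻¹ * g * z := by group
        rw [h5]; group
      rw [h4]
      exact N.inv_mem h2
    have h6 := (show Commute _ _ from hcomm).orderOf_mul_eq_mul_orderOf_of_coprime
      (by rw [hzq, hr]; norm_num)
    rw [hzq, hr, ← QuotientGroup.mk_mul] at h6
    have h7 : orderOf (QuotientGroup.mk (z * g) : G ⧸ N) ∣ orderOf (z * g) := orderOf_map_dvd (QuotientGroup.mk' N) (z * g)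
    rw [h6] at h7
    have h8 := h.le4 (z * g)
    have h9 := Nat.le_of_dvd (orderOf_pos _) h7
    omega
  obtain ⟨a, b, hab⟩ := card_eq h
  have hQc : ∃ k, Nat.card (G ⧸ N) = 2 ^ k := by
    have h1 : Nat.card (G ⧸ N) ∣ 2 ^ a * 3 ^ b := by rw [← hab]; exact Subgroup.card_quotient_dvd_card N
    have h2 : (Nat.card (G ⧸ N)).Coprime (3 ^ b) :=
      Nat.Coprime.pow_right b (((Nat.Prime.coprime_iff_not_dvd Nat.prime_three).mpr hQ2).symm)
    obtain ⟨k, -, hk⟩ := (Nat.dvd_prime_pow Nat.prime_two).mp (h2.dvd_of_dvd_mul_right h1)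
    exact ⟨k, hk⟩
  obtain ⟨k, hk⟩ := hQc
  have hQp : IsPGroup 2 (G ⧸ N) := IsPGroup.of_card hk
  -- order of elements of the quotient: representatives of 2-power order
  have hrep : ∀ q : G ⧸ N, ∃ g : G, QuotientGroup.mk g = q ∧ ∃ j, g ^ 2 ^ j = 1 := by
    intro q
    obtain ⟨g, rfl⟩ := QuotientGroup.mk_surjective q
    rcases h.le4 g with h1 | h1 | h1 | h1
    · exact ⟨g, rfl, 0, by rw [pow_zero, ← h1]; exact pow_orderOf_eq_one g⟩
    · exact ⟨g, rfl, 1, by rw [pow_one, ← h1]; exact pow_orderOf_eq_one g⟩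
    · refine ⟨1, ?_, 0, by simp⟩
      obtain ⟨j, hj⟩ := hQp (QuotientGroup.mk g)
      have h2 : orderOf (QuotientGroup.mk g : G ⧸ N) ∣ 2 ^ j := orderOf_dvd_of_pow_eq_one hj
      have h3 : orderOf (QuotientGroup.mk g : G ⧸ N) ∣ 3 := by
        rw [← h1]; exact orderOf_map_dvd (QuotientGroup.mk' N) g
      have h4 : orderOf (QuotientGroup.mk g : G ⧸ N) = 1 :=
        Nat.eq_one_of_dvd_coprimes (show Nat.Coprime (2 ^ j) 3 from Nat.Coprime.pow_left j (by norm_num)) h2 h3
      rw [orderOf_eq_one_iff.mp h4, QuotientGroup.mk_one]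
    · exact ⟨g, rfl, 2, by rw [show 2 ^ 2 = 4 by norm_num, ← h1]; exact pow_orderOf_eq_one g⟩
  have hQ4 : ∀ q : G ⧸ N, q ^ 4 = 1 := by
    intro q
    obtain ⟨g, rfl, j, hj⟩ := hrep q
    rw [← QuotientGroup.mk_pow, pow_four h hj, QuotientGroup.mk_one]
  have hQex : ∃ q : G ⧸ N, orderOf q = 4 := by
    refine ⟨QuotientGroup.mk g4, ?_⟩
    apply orderOf_eq_prime_pow (p := 2) (n := 1)
    · intro h1
      rw [pow_one, ← QuotientGroup.mk_pow] at h1
      exact hzNot z hz ((QuotientGroup.eq_one_iff _).mp h1)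
    · exact hQ4 _
  have hQu : ∀ x y : G ⧸ N, orderOf x = 2 → orderOf y = 2 → x = y := by
    have key : ∀ x : G ⧸ N, orderOf x = 2 → x = QuotientGroup.mk z := by
      intro x hx
      obtain ⟨g, rfl, j, hj⟩ := hrep x
      have h1 : orderOf g = 2 := by
        have h4 := pow_four h hj
        have h2 : (g ^ 2) ∈ N := by
          apply (QuotientGroup.eq_one_iff _).mp
          rw [QuotientGroup.mk_pow, ← hx, pow_orderOf_eq_one]
        apply orderOf_eq_prime
        · by_contra hne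
          have h3 := hn3 _ h2 hne
          have h5 : (g ^ 2) ^ 2 = 1 := by rw [← pow_mul]; exact h4
          have h6 := orderOf_dvd_of_pow_eq_one h5
          rw [h3] at h6
          omega
        · rintro rfl
          rw [QuotientGroup.mk_one, orderOf_one] at hx
          omega
      rw [eq_comm, QuotientGroup.eq]
      exact hzN g h1
    intro x y hx hy
    rw [key x hx, key y hy]
  rcases two_group hQp hQ4 hQex hQu with ⟨h1, h2⟩ | h1
  · exact Or.inl ⟨h1, h2⟩
  · exact Or.inr h1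

end Cfsg.Agent.H67.Ord4
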