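import Cfsg.Agent.H67.Ord4b

set_option autoImplicit false

/-! # Groups with element orders 1, 2, 3, 4: normal 2-subgroup (helper67) -/

namespace Cfsg.Agent.H67.Ord4

open Subgroup

universe u

variable {G : Type u} [Group G] [Finite G]

theorem even_of_mem (h : Hyp G) {x : G} {k : ℕ} (hx : x ^ 2 ^ k = 1) (hx1 : x ≠ 1) :
    2 ∣ orderOf x := by
  have h1 := orderOf_dvd_of_pow_eq_one hx
  rcases h.le4 x with h2 | h2 | h2 | h2
  · exact absurd (orderOf_eq_one_iff.mp h2) hx1
  · rw [h2]
  · rw [h2] at h1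
    have := (Nat.prime_dvd_prime_iff_eq (by norm_num) (by norm_num)).mp
      (Nat.Prime.dvd_of_dvd_pow (by norm_num : Nat.Prime 3) h1)
    omega
  · rw [h2]; norm_num

theorem centralizer_bot_of_le {K : Type*} [Group K] (h : centralizer ((⊥ : Subgroup K) : Set K) ≤ ⊥)
    (x : K) : x = 1 := by
  have : x ∈ centralizer ((⊥ : Subgroup K) : Set K) := by
    rw [mem_centralizer_iff]
    intro y hy
    rw [SetLike.mem_coe, mem_bot] at hy
    rw [hy, one_mul, mul_one]
  exact mem_bot.mp (h this)

/-- groups of order `2^c * 3` without normal 2-subgroups -/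
theorem quot_struct {Q : Type u} [Group Q] [Finite Q] (hs : Group.IsSolvable Q) {c : ℕ}
    (hc : Nat.card Q = 2 ^ c * 3) (h2 : Cfsg.pCore 2 Q = ⊥) :
    Nat.card Q = 3 ∨ (Nat.card Q = 6 ∧ ¬ ∀ a b : Q, a * b = b * a) := by
  classical
  have : Fact (Nat.Prime 2) := ⟨Nat.prime_two⟩
  have : Fact (Nat.Prime 3) := ⟨Nat.prime_three⟩
  have h3' : Cfsg.pPrimeCore 3 Q = ⊥ := by
    rw [eq_bot_iff, ← h2]
    apply Solv.le_pCore inferInstance
    have h4 := Solv.pPrimeCore_card_coprime (G := Q) 3
    have h5 : Nat.card (Cfsg.pPrimeCore 3 Q) ∣ 2 ^ c * 3 := by rw [← hc]; exact Subgroup.card_subgroup_dvd_card _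
    have h6 := h4.dvd_of_dvd_mul_right h5
    obtain ⟨k, -, hk⟩ := (Nat.dvd_prime_pow Nat.prime_two).mp h6
    exact IsPGroup.of_card hk
  have hC := H91.centralizer_pCore_le 3 h3'
  set M := Cfsg.pCore 3 Q with hM
  have hMn : M.Normal := Solv.pCore_normal 3
  have hM3 : IsPGroup 3 M := Solv.pCore_isPGroup 3
  have hMne : M ≠ ⊥ := by
    intro h4
    rw [h4] at hC
    obtain ⟨x, hx⟩ := exists_prime_orderOf_dvd_card' (G := Q) 3 (by rw [hc]; exact dvd_mul_left _ _)
    have := centralizer_bot_of_le hC x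
    rw [this, orderOf_one] at hx
    omega
  have hMc : Nat.card M = 3 := by
    obtain ⟨j, hj⟩ := IsPGroup.iff_card.mp hM3
    have h4 : 3 ^ j ∣ 2 ^ c * 3 := by rw [← hc, ← hj]; exact Subgroup.card_subgroup_dvd_card _
    have h5 : 3 ^ j ∣ 3 := by
      refine Nat.Coprime.dvd_of_dvd_mul_left ?_ h4
      exact Nat.Coprime.pow j c (by norm_num)
    rcases (Nat.dvd_prime Nat.prime_three).mp h5 with h6 | h6
    · rw [h6] at hj
      exact absurd (Subgroup.card_eq_one.mp hj) hMne
    · rw [hj, h6]
  obtain ⟨⟨m, hmM⟩, hm⟩ := exists_prime_orderOf_dvd_card' (G := M) 3 (by rw [hMc])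
  have hm' : orderOf m = 3 := by rw [Subgroup.orderOf_mk] at hm; exact hm
  have hMz : zpowers m = M :=
    Subgroup.eq_of_le_of_card_ge (zpowers_le.mpr hmM) (by rw [Nat.card_zpowers, hm', hMc])
  have hCm : centralizer ({m} : Set Q) = M := by
    apply le_antisymm
    · refine le_trans ?_ hC
      intro x hx
      rw [mem_centralizer_singleton_iff] at hx
      rw [mem_centralizer_iff]
      intro y hy
      have hy' : y ∈ zpowers m := by rw [hMz]; exact hy
      obtain ⟨k, rfl⟩ := mem_zpowers_iff.mp hy'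
      exact ((show Commute m x from hx.symm).zpow_left k).eq
    · rw [← hMz, zpowers_le, mem_centralizer_singleton_iff]
  have hidx : (centralizer ({m} : Set Q)).index ≤ 2 := by
    rw [← natCard_isConj_eq_index]
    let f : {x : Q // IsConj m x} → {y : M // y ≠ 1} := fun x => ⟨⟨x.1, by
      obtain ⟨g, hg⟩ := isConj_iff.mp x.2
      rw [← hg]; exact hMn.conj_mem _ hmM g⟩, by
      intro h4
      have h5 : x.1 = 1 := congrArg Subtype.val h4
      have h6 := x.2
      rw [h5] at h6
      have h7 : m = 1 := by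
        obtain ⟨g, hg⟩ := isConj_iff.mp h6
        have : m = g⁻¹ * (g * m * g⁻¹) * g := by group
        rw [this, hg]; group
      rw [h7, orderOf_one] at hm'
      omega⟩
    have hf : Function.Injective f := by
      intro x y hxy
      exact Subtype.ext (congrArg (fun z => ((z.1 : M) : Q)) hxy)
    refine le_trans (Nat.card_le_card_of_injective f hf) ?_
    have h8 : Nat.card {y : M // y ≠ 1} + 1 = Nat.card M := by
      have h9 := Nat.card_congr (Equiv.sumCompl (fun y : M => y = 1))
      rw [Nat.card_sum] at h9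
      have h10 : Nat.card {y : M // y = 1} = 1 := by simp
      rw [h10] at h9
      have : Nat.card {y : M // y ≠ 1} = Nat.card {y : M // ¬ y = 1} := rfl
      omega
    omega
  have hidx1 : (centralizer ({m} : Set Q)).index ≠ 0 := Subgroup.index_ne_zero_of_finite
  have hmul := Subgroup.card_mul_index (centralizer ({m} : Set Q))
  rw [hCm, hMc] at hmul
  rw [hCm] at hidx hidx1
  rcases (show M.index = 1 ∨ M.index = 2 by omega) with h4 | h4
  · left; rw [← hmul, h4]
  · right
    refine ⟨by rw [← hmul, h4], fun hab => ?_⟩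
    have h5 : M = ⊤ := by
      rw [← hCm, eq_top_iff]
      intro x _
      rw [mem_centralizer_singleton_iff]
      exact hab _ _
    rw [h5, Subgroup.index_top] at h4
    omega

end Cfsg.Agent.H67.Ord4
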