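import Cfsg.Agent.H67.Ord4c

set_option autoImplicit false

/-! # Groups with element orders 1, 2, 3, 4: end of proof (helper67) -/

namespace Cfsg.Agent.H67.Ord4

open Subgroup

universe u

variable {G : Type u} [Group G] [Finite G]

theorem caseA (h : Hyp G) (hN : Cfsg.pPrimeCore 2 G = ⊥) :
    (IsPGroup 2 (Cfsg.pCore 2 G) ∧ Monoid.exponent (Cfsg.pCore 2 G) = 4 ∧
        Group.nilpotencyClass (Cfsg.pCore 2 G) ≤ 2 ∧ (Cfsg.pCore 2 G).index = 3) ∨
      (IsElementaryAbelian 2 (Cfsg.pCore 2 G) ∧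
        Nonempty (G ⧸ Cfsg.pCore 2 G ≃* Equiv.Perm (Fin 3))) := by
  classical
  have : Fact (Nat.Prime 2) := ⟨Nat.prime_two⟩
  have : Fact (Nat.Prime 3) := ⟨Nat.prime_three⟩
  have hsol := solvable h
  have hC := H91.centralizer_pCore_le 2 hN
  have hQ2 : Cfsg.pCore 2 (G ⧸ Cfsg.pCore 2 G) = ⊥ := Solv.pCore_quotient_pCore 2
  have hQs : Group.IsSolvable (G ⧸ Cfsg.pCore 2 G) := inferInstance
  set N := Cfsg.pCore 2 G with hNdef
  have hNn : N.Normal := Solv.pCore_normal 2
  have hN2 : IsPGroup 2 N := Solv.pCore_isPGroup 2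
  have hNne : N ≠ ⊥ := by
    intro h1
    rw [h1] at hC
    obtain ⟨x, hx⟩ := h.ex4
    have := centralizer_bot_of_le hC x
    rw [this, orderOf_one] at hx
    omega
  have hfix : ∀ y : G, orderOf y = 3 → ∀ n ∈ N, y * n = n * y → n = 1 := by
    intro y hy n hn hyn
    by_contra hn1
    obtain ⟨k, hk⟩ := hN2 ⟨n, hn⟩
    exact no_comm' h (even_of_mem h (congrArg Subtype.val hk) hn1) hy hyn.symm
  -- Sylow 3-subgroups have order 3
  have h9 : ¬ 3 ^ 2 ∣ Nat.card G := by
    intro h9
    obtain ⟨A, hA⟩ := Sylow.exists_subgroup_card_pow_prime 3 h9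
    have hAc : ∀ a b : A, a * b = b * a := IsPGroup.commutative_of_card_eq_prime_sq hA
    have hAcomm : IsMulCommutative A := ⟨⟨hAc⟩⟩
    have hAnc : ¬ IsCyclic A := by
      intro hc
      obtain ⟨g, hg⟩ := IsCyclic.exists_generator (α := A)
      have h1 : orderOf g = Nat.card A := orderOf_eq_card_of_forall_mem_zpowers hg
      rw [hA, ← Subgroup.orderOf_coe] at h1
      have h2 := h.le4 (g : G)
      rw [h1] at h2
      norm_num at h2
    have hAN : A ≤ normalizer (N : Set G) := by
      rw [normalizer_eq_top]; exact le_top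
    obtain ⟨k, hk⟩ := IsPGroup.iff_card.mp hN2
    have h1 := S0058.result A N hAnc hAN (by rw [hA, hk]; exact Nat.Coprime.pow 2 k (by norm_num))
    apply hNne
    rw [← h1, eq_bot_iff]
    refine iSup_le fun a => iSup_le fun ha => ?_
    obtain ⟨haA, ha1⟩ := ha
    rintro n ⟨hn, hna⟩
    have ha3 : orderOf a = 3 := by
      have h2 : orderOf a ∣ 3 ^ 2 := by
        rw [← hA, ← Subgroup.orderOf_mk a haA]; exact orderOf_dvd_natCard _
      exact orderOf_pgroup h (orderOf_dvd_iff_pow_eq_one.mp h2) ha1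
    have hna' := mem_centralizer_singleton_iff.mp (show n ∈ centralizer ({a} : Set G) from hna)
    exact mem_bot.mpr (hfix a ha3 n hn hna'.symm)
  obtain ⟨a, b, hab⟩ := card_eq h
  have hb : b = 1 := by
    have hb1 : b ≤ 1 := by
      by_contra hlt
      apply h9
      rw [hab]
      exact (pow_dvd_pow 3 (by omega)).mul_left _
    have hb0 : b ≠ 0 := by
      rintro rfl
      rw [pow_zero, mul_one] at hab
      obtain ⟨x, hx⟩ := h.ex3
      have h1 : 3 ∣ 2 ^ a := by rw [← hab, ← hx]; exact orderOf_dvd_natCard x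
      have := (Nat.prime_dvd_prime_iff_eq (by norm_num) (by norm_num)).mp
        (Nat.Prime.dvd_of_dvd_pow (by norm_num : Nat.Prime 3) h1)
      omega
    omega
  subst hb
  obtain ⟨k, hk⟩ := IsPGroup.iff_card.mp hN2
  have hNidx := N.card_mul_index
  have hQc : ∃ c, Nat.card (G ⧸ N) = 2 ^ c * 3 := by
    have h1 : 2 ^ k * N.index = 2 ^ a * 3 := by
      rw [← hk, hNidx, hab, pow_one]
    have hka : k ≤ a := by
      have h2 : 2 ^ k ∣ 2 ^ a * 3 := ⟨_, h1.symm⟩
      have h3 : 2 ^ k ∣ 2 ^ a := Nat.Coprime.dvd_of_dvd_mul_right (Nat.Coprime.pow_left k (by norm_num)) h2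
      exact (Nat.pow_dvd_pow_iff_le_right (by norm_num)).mp h3
    obtain ⟨c, rfl⟩ := Nat.exists_eq_add_of_le hka
    refine ⟨c, ?_⟩
    rw [pow_add, mul_assoc] at h1
    exact Nat.eq_of_mul_eq_mul_left (pow_pos (by norm_num) k) h1
  obtain ⟨c, hc⟩ := hQc
  -- the automorphism of order three
  obtain ⟨x, hx⟩ := h.ex3
  have hN4 : ∀ n ∈ N, n ^ 4 = 1 := by
    intro n hn
    obtain ⟨k, hk⟩ := hN2 ⟨n, hn⟩
    exact pow_four h (congrArg Subtype.val hk)
  have hstr : ∀ x : G, orderOf x = 3 → Fpf3.Nrm ((MulAut.conjNormal x : MulAut N).toMonoidHom) ∧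
      ∀ g : N, ∃ c, (MulAut.conjNormal x : MulAut N).toMonoidHom c * c⁻¹ = g := by
    intro x hx
    apply nrm_of_fpf
    · intro g
      apply Subtype.ext
      change x * (x * (x * g * x⁻¹) * x⁻¹) * x⁻¹ = g
      have hx3 : x ^ 3 = 1 := by rw [← hx]; exact pow_orderOf_eq_one x
      calc x * (x * (x * (g : G) * x⁻¹) * x⁻¹) * x⁻¹ = x ^ 3 * g * (x ^ 3)⁻¹ := by
            rw [pow_succ, pow_two]; group
        _ = g := by rw [hx3]; group
    · intro g hg
      have h1 : x * g * x⁻¹ = g := congrArg Subtype.val hg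
      apply Subtype.ext
      apply hfix x hx g g.2
      calc x * g = (x * g * x⁻¹) * x := by group
        _ = g * x := by rw [h1]
  have hcen : ∀ u v : N, u⁻¹ * v⁻¹ * u * v ∈ center N := fun u v => (hstr x hx).1.central (hstr x hx).2 u v
  rcases quot_struct hQs hc hQ2 with h3 | ⟨h6, hnab⟩
  · left
    have hidx : N.index = 3 := h3
    refine ⟨hN2, ?_, ?_, hidx⟩
    · apply Nat.dvd_antisymm
      · apply Monoid.exponent_dvd_of_forall_pow_eq_one
        intro n
        exact Subtype.ext (hN4 n n.2)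
      · obtain ⟨g, hg⟩ := h.ex4
        have hgN : g ∈ N := by
          apply (QuotientGroup.eq_one_iff _).mp
          have h1 : orderOf (QuotientGroup.mk g : G ⧸ N) ∣ 4 := by
            rw [← hg]; exact orderOf_map_dvd (QuotientGroup.mk' N) g
          have h2 : orderOf (QuotientGroup.mk g : G ⧸ N) ∣ 3 := by
            rw [← h3]; exact orderOf_dvd_natCard _
          exact orderOf_eq_one_iff.mp (Nat.eq_one_of_dvd_coprimes (by norm_num : Nat.Coprime 4 3) h1 h2)
        have h1 : orderOf (⟨g, hgN⟩ : N) = 4 := by rw [Subgroup.orderOf_mk, hg]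
        rw [← h1]
        exact Monoid.order_dvd_exponent _
    · have hnil : Group.IsNilpotent N := hN2.isNilpotent
      rw [← Subgroup.upperCentralSeries_eq_top_iff_nilpotencyClass_le, eq_top_iff]
      intro u _
      rw [Subgroup.mem_upperCentralSeries_succ_iff]
      intro v
      rw [Subgroup.upperCentralSeries_one]
      have := hcen u⁻¹ v⁻¹
      rw [inv_inv, inv_inv] at this
      exact this
  · right
    have hidx : N.index = 6 := h6
    refine ⟨?_, nonempty_mulEquiv_perm_three h6 hnab⟩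
    -- the inverting involution
    have hex : ∃ R : Sylow 3 G, ∃ g ∈ normalizer ((R : Subgroup G) : Set G), ∃ z ∈ (R : Subgroup G),
        g * z ≠ z * g := by
      by_contra hcon
      push_neg at hcon
      obtain ⟨K, hK, hK3, j, hKj⟩ := BSW.exists_complement_of_burnside (G := G) 3 hcon
      have hK2 : K ≤ N := by
        apply Solv.le_pCore hK
        have h1 : Nat.card K ∣ 2 ^ a * 3 := by rw [← pow_one 3, ← hab]; exact Subgroup.card_subgroup_dvd_card _
        have h2 : (Nat.card K).Coprime 3 := ((Nat.Prime.coprime_iff_not_dvd Nat.prime_three).mpr hK3).symm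
        obtain ⟨i, -, hi⟩ := (Nat.dvd_prime_pow Nat.prime_two).mp (h2.dvd_of_dvd_mul_right h1)
        exact IsPGroup.of_card hi
      have h1 : N.index ∣ K.index := Subgroup.index_dvd_of_le hK2
      rw [hidx, hKj] at h1
      have h2 : 2 ∣ 3 ^ j := (by norm_num : 2 ∣ 6).trans h1
      have := (Nat.prime_dvd_prime_iff_eq (by norm_num) (by norm_num)).mp
        (Nat.Prime.dvd_of_dvd_pow (by norm_num : Nat.Prime 2) h2)
      omega
    obtain ⟨R, g, hg, z, hz, hgz⟩ := hex
    have hR3 : Nat.card (R : Subgroup G) = 3 := by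
      have h1 := R.card_eq_multiplicity
      have h2 : (Nat.card G).factorization 3 = 1 := by
        have h4 : ¬ 3 ∣ 2 ^ a := by
          intro h3
          have := (Nat.prime_dvd_prime_iff_eq (by norm_num) (by norm_num)).mp
            (Nat.Prime.dvd_of_dvd_pow (by norm_num : Nat.Prime 3) h3)
          omega
        rw [hab, pow_one, Nat.factorization_mul (pow_ne_zero _ (by norm_num)) (by norm_num),
          Finsupp.add_apply, Nat.factorization_eq_zero_of_not_dvd h4, zero_add,
          Nat.Prime.factorization_self Nat.prime_three]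
      rw [h2, pow_one] at h1
      exact h1
    have hz1 : z ≠ 1 := by rintro rfl; exact hgz (by rw [mul_one, one_mul])
    have hz3 : orderOf z = 3 := by
      have h2 : orderOf z ∣ 3 := by
        rw [← hR3, ← Subgroup.orderOf_mk z hz]; exact orderOf_dvd_natCard _
      rcases (Nat.dvd_prime Nat.prime_three).mp h2 with h3 | h3
      · exact absurd (orderOf_eq_one_iff.mp h3) hz1
      · exact h3
    have hRz : zpowers z = (R : Subgroup G) :=
      Subgroup.eq_of_le_of_card_ge (zpowers_le.mpr hz) (by rw [Nat.card_zpowers, hz3, hR3])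
    have hz3' : z ^ 3 = 1 := by rw [← hz3]; exact pow_orderOf_eq_one z
    have hginv : g * z * g⁻¹ = z⁻¹ := by
      have h1 : g * z * g⁻¹ ∈ (R : Subgroup G) := (mem_normalizer_iff.mp hg z).mp hz
      rw [← hRz, ← mem_powers_iff_mem_zpowers] at h1
      obtain ⟨i, hi⟩ := h1
      simp only at hi
      have h2 : z ^ i = z ^ (i % 3) := by
        rw [← hz3]; exact (pow_mod_orderOf z i).symm
      rw [h2] at hi
      have h3 : i % 3 < 3 := Nat.mod_lt _ (by norm_num)
      interval_cases hi3 : i % 3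
      · exfalso
        rw [pow_zero] at hi
        apply hz1
        calc z = g⁻¹ * (g * z * g⁻¹) * g := by group
          _ = 1 := by rw [← hi]; group
      · exfalso
        apply hgz
        calc g * z = (g * z * g⁻¹) * g := by group
          _ = z * g := by rw [← hi, pow_one]
      · rw [← hi]
        apply eq_inv_of_mul_eq_one_left
        rw [← pow_succ]; exact hz3'
    -- replace g by an involution
    have hg2 : g ^ 2 * z = z * g ^ 2 := by
      have h1 : g * z⁻¹ * g⁻¹ = z := by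
        calc g * z⁻¹ * g⁻¹ = (g * z * g⁻¹)⁻¹ := by group
          _ = z := by rw [hginv, inv_inv]
      calc g ^ 2 * z = g * (g * z * g⁻¹) * g⁻¹ * g ^ 2 := by rw [pow_two]; group
        _ = g * z⁻¹ * g⁻¹ * g ^ 2 := by rw [hginv]
        _ = z * g ^ 2 := by rw [h1]
    -- orderOf g is even: 2 or 4; 4 impossible
    have hg_ord : orderOf g = 2 := by
      rcases h.le4 g with h1 | h1 | h1 | h1
      · exfalso
        rw [orderOf_eq_one_iff.mp h1] at hgz
        exact hgz (by rw [one_mul, mul_one])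
      · exact h1
      · exfalso
        -- g^3 = 1 and g² commutes with z, so g commutes
        have h2 : g ^ 3 = 1 := by rw [← h1]; exact pow_orderOf_eq_one g
        have h3 : (g ^ 2) ^ 2 = g := by
          calc (g ^ 2) ^ 2 = g ^ 3 * g := by rw [← pow_mul, ← pow_succ]
            _ = g := by rw [h2, one_mul]
        apply hgz
        have h4 := (show Commute (g ^ 2) z from hg2).pow_left 2
        rw [h3] at h4
        exact h4
      · exfalso
        have h2 : orderOf (g ^ 2) = 2 := by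
          rw [orderOf_pow' g (by norm_num), h1]; norm_num
        exact no_comm h h2 hz3 hg2
    have hgg : g * g = 1 := by
      have := pow_orderOf_eq_one g
      rwa [hg_ord, pow_two] at this
    have hgi : g⁻¹ = g := inv_eq_of_mul_eq_one_right hgg
    have hgN : g ∉ N := by
      intro hgN
      -- z * g * z⁻¹ ... commutator in N ∩ R
      have h1 : z * g * z⁻¹ * g⁻¹ ∈ N := N.mul_mem (hNn.conj_mem g hgN z) (N.inv_mem hgN)
      have h2 : z * g * z⁻¹ * g⁻¹ = z * z := by
        have h3 : g * z⁻¹ * g⁻¹ = z := by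
          calc g * z⁻¹ * g⁻¹ = (g * z * g⁻¹)⁻¹ := by group
            _ = z := by rw [hginv, inv_inv]
        calc z * g * z⁻¹ * g⁻¹ = z * (g * z⁻¹ * g⁻¹) := by group
          _ = z * z := by rw [h3]
      rw [h2] at h1
      have h3 := hfix z hz3 (z * z) h1 (by group)
      have h4 : z = 1 := by
        calc z = z ^ 3 * (z * z)⁻¹ := by rw [pow_succ, pow_two]; group
          _ = 1 := by rw [hz3', h3]; group
      exact hz1 h4
    have hsq : ∀ n ∈ N, (g * n * g⁻¹ * n) ^ 2 = 1 := by
      intro n hn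
      have h1 : (g * n) ^ 4 = 1 := by
        rcases h.le4 (g * n) with h2 | h2 | h2 | h2
        · rw [orderOf_eq_one_iff.mp h2, one_pow]
        · apply orderOf_dvd_iff_pow_eq_one.mp; rw [h2]; norm_num
        · exfalso
          -- image has order dividing 2 and 3
          have h3 : orderOf (QuotientGroup.mk (g * n) : G ⧸ N) ∣ 3 := by
            rw [← h2]; exact orderOf_map_dvd (QuotientGroup.mk' N) _
          have h4 : (QuotientGroup.mk (g * n) : G ⧸ N) = QuotientGroup.mk g := by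
            rw [eq_comm, QuotientGroup.eq]
            have : g⁻¹ * (g * n) = n := by group
            rw [this]; exact hn
          have h5 : orderOf (QuotientGroup.mk g : G ⧸ N) ∣ 2 := by
            rw [← hg_ord]; exact orderOf_map_dvd (QuotientGroup.mk' N) _
          rw [h4] at h3
          have h6 := orderOf_eq_one_iff.mp (Nat.eq_one_of_dvd_coprimes (by norm_num : Nat.Coprime 2 3) h5 h3)
          exact hgN ((QuotientGroup.eq_one_iff _).mp h6)
        · apply orderOf_dvd_iff_pow_eq_one.mp; rw [h2]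
      have h2 : (g * n) ^ 4 = (g * n * g * n) ^ 2 := by
        rw [show (4 : ℕ) = 2 * 2 by norm_num, pow_mul, pow_two (g * n)]
        group
      rw [hgi, ← h2]
      exact h1
    have hzs := hstr z hz3
    have hsqN : ∀ n ∈ N, n ^ 2 = 1 := by
      intro n hn
      -- φ
      have hcomm := hzs.1.comm1 (⟨g * n * g⁻¹, hNn.conj_mem n hn g⟩ : N) 1
      have hn1 := hzs.1.n1 (⟨g * n * g⁻¹, hNn.conj_mem n hn g⟩ : N)
      have e1 := hsq n hn
      have e2 : (z * (g * n * g⁻¹) * z⁻¹ * n) ^ 2 = 1 := by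
        have h1 := hsq (z * n * z⁻¹) (hNn.conj_mem n hn z)
        have h2 : g * (z * n * z⁻¹) * g⁻¹ = z⁻¹ * (g * n * g⁻¹) * z := by
          calc g * (z * n * z⁻¹) * g⁻¹ = (g * z * g⁻¹) * (g * n * g⁻¹) * (g * z * g⁻¹)⁻¹ := by group
            _ = _ := by rw [hginv, inv_inv]
        rw [h2] at h1
        have h3 : z * (g * n * g⁻¹) * z⁻¹ * n =
            z⁻¹ * (z⁻¹ * (g * n * g⁻¹) * z * (z * n * z⁻¹)) * z := by
          have hz2 : z⁻¹ * z⁻¹ = z := by
            calc z⁻¹ * z⁻¹ = (z ^ 3)⁻¹ * z := by rw [pow_succ, pow_two]; group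
              _ = z := by rw [hz3']; group
          have hz2' : z * z = z⁻¹ := by
            calc z * z = z ^ 3 * z⁻¹ := by rw [pow_succ, pow_two]; group
              _ = z⁻¹ := by rw [hz3']; group
          calc z * (g * n * g⁻¹) * z⁻¹ * n
              = (z⁻¹ * z⁻¹) * (g * n * g⁻¹) * (z * z) * n := by rw [hz2, hz2']
            _ = _ := by group
        rw [h3]
        have h4 : (z⁻¹ * (z⁻¹ * (g * n * g⁻¹) * z * (z * n * z⁻¹)) * z) ^ 2 =
            z⁻¹ * (z⁻¹ * (g * n * g⁻¹) * z * (z * n * z⁻¹)) ^ 2 * z := by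
          rw [pow_two, pow_two]; group
        rw [h4, h1]; group
      have e3 : (z * (z * (g * n * g⁻¹) * z⁻¹) * z⁻¹ * n) ^ 2 = 1 := by
        have h1 := hsq (z⁻¹ * n * z) (by
          have := hNn.conj_mem n hn z⁻¹
          rwa [inv_inv] at this)
        have h2 : g * (z⁻¹ * n * z) * g⁻¹ = z * (g * n * g⁻¹) * z⁻¹ := by
          calc g * (z⁻¹ * n * z) * g⁻¹ = (g * z * g⁻¹)⁻¹ * (g * n * g⁻¹) * (g * z * g⁻¹) := by group
            _ = _ := by rw [hginv, inv_inv]
        rw [h2] at h1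
        have h4 : z * (z * (g * n * g⁻¹) * z⁻¹) * z⁻¹ * n =
            z * (z * (g * n * g⁻¹) * z⁻¹ * (z⁻¹ * n * z)) * z⁻¹ := by group
        have h5 : (z * (z * (g * n * g⁻¹) * z⁻¹ * (z⁻¹ * n * z)) * z⁻¹) ^ 2 =
            z * (z * (g * n * g⁻¹) * z⁻¹ * (z⁻¹ * n * z)) ^ 2 * z⁻¹ := by
          rw [pow_two, pow_two]; group
        rw [h4, h5, h1]; group
      have := sq_eq_one (N := N) (a := ⟨g * n * g⁻¹, hNn.conj_mem n hn g⟩)
        (a' := (MulAut.conjNormal z : MulAut N).toMonoidHom ⟨g * n * g⁻¹, hNn.conj_mem n hn g⟩)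
        (a'' := (MulAut.conjNormal z : MulAut N).toMonoidHom
          ((MulAut.conjNormal z : MulAut N).toMonoidHom ⟨g * n * g⁻¹, hNn.conj_mem n hn g⟩))
        (n := ⟨n, hn⟩) hcen (Subtype.ext (hN4 n hn)) hn1 (by simpa using hcomm)
        (Subtype.ext e1) (Subtype.ext e2) (Subtype.ext e3)
      exact congrArg Subtype.val this
    refine ⟨⟨⟨fun u v => Subtype.ext ?_⟩⟩, hsqN⟩
    have h1 := hsqN u u.2
    have h2 := hsqN v v.2
    have h3 := hsqN _ (N.mul_mem u.2 v.2)
    rw [pow_two] at h1 h2 h3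
    have h1' : (u : G)⁻¹ = u := inv_eq_of_mul_eq_one_right h1
    have h2' : (v : G)⁻¹ = v := inv_eq_of_mul_eq_one_right h2
    have h3' : ((u : G) * v)⁻¹ = u * v := inv_eq_of_mul_eq_one_right h3
    change (u : G) * v = v * u
    rw [← h3', mul_inv_rev, h1', h2']

theorem main (h : Hyp G) : ∃ (N : Subgroup G) (_ : N.Normal),
      (IsPGroup 2 ↥N ∧ Monoid.exponent ↥N = 4 ∧ Group.nilpotencyClass ↥N ≤ 2 ∧ N.index = 3) ∨
      (Cfsg.IsElementaryAbelian 2 N ∧ Nonempty (G ⧸ N ≃* Equiv.Perm (Fin 3))) ∨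
      (Cfsg.IsElementaryAbelian 3 N ∧ ((IsCyclic (G ⧸ N) ∧ N.index = 4) ∨
        Nonempty (G ⧸ N ≃* QuaternionGroup 2))) := by
  have : Fact (Nat.Prime 2) := ⟨Nat.prime_two⟩
  have : Fact (Nat.Prime 3) := ⟨Nat.prime_three⟩
  by_cases h2 : Cfsg.pPrimeCore 2 G = ⊥
  · refine ⟨Cfsg.pCore 2 G, Solv.pCore_normal 2, ?_⟩
    rcases caseA h h2 with h3 | h3
    · exact Or.inl h3
    · exact Or.inr (Or.inl h3)
  · by_cases h3 : Cfsg.pPrimeCore 3 G = ⊥
    · exact ⟨Cfsg.pCore 3 G, Solv.pCore_normal 3, Or.inr (Or.inr (caseB h h3))⟩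
    · exfalso
      obtain ⟨a, b, hab⟩ := card_eq h
      -- an element of order 3 in O_{2'} and an element of order 2 in O_{3'}
      have hA := Solv.pPrimeCore_card_coprime (G := G) 2
      have hB := Solv.pPrimeCore_card_coprime (G := G) 3
      have hA1 : Nat.card (Cfsg.pPrimeCore 2 G) ∣ 3 ^ b := by
        have : Nat.card (Cfsg.pPrimeCore 2 G) ∣ 2 ^ a * 3 ^ b := by
          rw [← hab]; exact Subgroup.card_subgroup_dvd_card _
        exact (Nat.Coprime.pow_right a hA).dvd_of_dvd_mul_left this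
      have hB1 : Nat.card (Cfsg.pPrimeCore 3 G) ∣ 2 ^ a := by
        have : Nat.card (Cfsg.pPrimeCore 3 G) ∣ 2 ^ a * 3 ^ b := by
          rw [← hab]; exact Subgroup.card_subgroup_dvd_card _
        exact (Nat.Coprime.pow_right b hB).dvd_of_dvd_mul_right this
      obtain ⟨i, -, hi⟩ := (Nat.dvd_prime_pow Nat.prime_three).mp hA1
      obtain ⟨j, -, hj⟩ := (Nat.dvd_prime_pow Nat.prime_two).mp hB1
      have hi0 : i ≠ 0 := by
        rintro rfl
        exact h2 (Subgroup.card_eq_one.mp hi)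
      have hj0 : j ≠ 0 := by
        rintro rfl
        exact h3 (Subgroup.card_eq_one.mp hj)
      obtain ⟨x, hx⟩ := exists_prime_orderOf_dvd_card' (G := Cfsg.pPrimeCore 3 G) 2
        (by rw [hj]; exact dvd_pow_self 2 hj0)
      obtain ⟨y, hy⟩ := exists_prime_orderOf_dvd_card' (G := Cfsg.pPrimeCore 2 G) 3
        (by rw [hi]; exact dvd_pow_self 3 hi0)
      have hcop : (Nat.card (Cfsg.pPrimeCore 3 G)).Coprime (Nat.card (Cfsg.pPrimeCore 2 G)) := by
        rw [hi, hj]
        exact Nat.Coprime.pow j i (by norm_num)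
      have hdis : Disjoint (Cfsg.pPrimeCore 3 G) (Cfsg.pPrimeCore 2 G) :=
        disjoint_iff.mpr (Subgroup.inf_eq_bot_of_coprime hcop)
      have hcomm := Subgroup.commute_of_normal_of_disjoint _ _ (Solv.pPrimeCore_normal (G := G) 3)
        (Solv.pPrimeCore_normal (G := G) 2) hdis (x : G) (y : G) x.2 y.2
      refine no_comm h (x := (x : G)) (y := (y : G)) ?_ ?_ hcomm.eq
      · rw [Subgroup.orderOf_coe, hx]
      · rw [Subgroup.orderOf_coe, hy]

end Cfsg.Agent.H67.Ord4
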